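import Cfsg.Agent.BNSteinberg.MinRep

/-!
# Alternating sums of fixed points on the coset spaces of parabolic subgroups

For a finite group with a BN-pair, the alternating sum over `K ⊆ I` of the fixed points of an
element of `B` on the cosets of `P_K` in `P_I` counts its fixed points on the cell of the longest
element of `W_I`.
-/

set_option autoImplicit false

namespace CfsgLib.BNSteinberg

open CfsgLib.BNPair

variable {G : Type*} [Group G] (P : Cfsg.BNPair G) {ι : Type*} (f : ι → P.S)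

/-- The standard parabolic subgroup of a finite set of indices. -/
def par (K : Finset ι) : Subgroup G := P.parabolic ((fun i => (f i : G)) '' (K : Set ι))

/-- The parabolic subgroup of the Weyl group. -/
def wK (K : Finset ι) : Subgroup (W P) := wPar P (f '' (K : Set ι))

/-- The indices that are descents of `w`. -/
def IsDesc (w : W P) (i : ι) : Prop := len P (w * σ P (f i)) < len P w

/-- The Bruhat type of a coset of `B`. -/
noncomputable def tyQ (x : G ⧸ P.B) : W P := (bruhat P x.out).choose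

/-- The projection to the cosets of a parabolic subgroup. -/
def proj (K : Finset ι) (x : G ⧸ P.B) : G ⧸ par P f K :=
  Quotient.map' id (fun a b h => by
    rw [QuotientGroup.leftRel_apply] at h ⊢
    exact (le_sup_left : P.B ≤ par P f K) h) x

/-- The cosets of `B` inside `P_I`. -/
def InPar (I : Finset ι) (x : G ⧸ P.B) : Prop := tyQ P x ∈ wK P f I

theorem tyQ_mem (x : G ⧸ P.B) : x.out ∈ cell P (tyQ P x) := (bruhat P x.out).choose_spec

theorem tyQ_mk {g : G} {w : W P} (hg : g ∈ cell P w) : tyQ P (g : G ⧸ P.B) = w := by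
  obtain ⟨b, hb⟩ := QuotientGroup.mk_out_eq_mul P.B g
  have h := tyQ_mem P (g : G ⧸ P.B)
  rw [hb] at h
  exact cell_unique P h (mem_cell_mul_B P hg b.2)

theorem exists_rep (x : G ⧸ P.B) : ∃ g : G, (g : G ⧸ P.B) = x ∧ g ∈ cell P (tyQ P x) :=
  ⟨x.out, x.out_eq, tyQ_mem P x⟩

theorem tyQ_smul {b : G} (hb : b ∈ P.B) (x : G ⧸ P.B) : tyQ P (b • x) = tyQ P x := by
  obtain ⟨g, rfl, hg⟩ := exists_rep P x
  exact tyQ_mk P (B_mul_mem_cell P hb hg)

theorem proj_mk (K : Finset ι) (g : G) : proj P f K (g : G ⧸ P.B) = (g : G ⧸ par P f K) := rfl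

theorem proj_smul (K : Finset ι) (g : G) (x : G ⧸ P.B) :
    proj P f K (g • x) = g • proj P f K x := by
  obtain ⟨a, rfl⟩ := QuotientGroup.mk_surjective x
  rfl

theorem image_subset (K : Finset ι) : (fun i => (f i : G)) '' (K : Set ι) ⊆ P.S := by
  rintro x ⟨i, -, rfl⟩; exact (f i).2

theorem mem_par_iff (K : Finset ι) (g : G) :
    g ∈ par P f K ↔ ∃ w ∈ wK P f K, g ∈ cell P w := by
  have e : {s : P.S | (s : G) ∈ (fun i => (f i : G)) '' (K : Set ι)} = f '' (K : Set ι) := by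
    ext s
    simp only [Set.mem_setOf_eq, Set.mem_image]
    exact ⟨fun ⟨i, hi, h⟩ => ⟨i, hi, Subtype.ext h⟩, fun ⟨i, hi, h⟩ => ⟨i, hi, congrArg Subtype.val h⟩⟩
  rw [par, mem_parabolic_iff P (image_subset P f K), e]
  rfl

theorem inPar_mk_iff (I : Finset ι) (g : G) : InPar P f I (g : G ⧸ P.B) ↔ g ∈ par P f I := by
  rw [InPar, mem_par_iff]
  obtain ⟨w, hw⟩ := bruhat P g
  rw [tyQ_mk P hw]
  exact ⟨fun h => ⟨w, h, hw⟩, fun ⟨v, hv, hgv⟩ => cell_unique P hw hgv ▸ hv⟩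

theorem par_mono {K I : Finset ι} (h : K ⊆ I) : par P f K ≤ par P f I :=
  parabolic_mono P (Set.image_mono (Finset.coe_subset.2 h))

theorem wK_mono {K I : Finset ι} (h : K ⊆ I) : wK P f K ≤ wK P f I :=
  Subgroup.closure_mono (Set.image_mono (Set.image_mono (Finset.coe_subset.2 h)))

theorem σ_mem_wK {K : Finset ι} {i : ι} (hi : i ∈ K) : σ P (f i) ∈ wK P f K :=
  σ_mem_wPar P ⟨i, hi, rfl⟩

theorem min_of_no_desc {K : Finset ι} {w : W P} (h : ∀ i ∈ K, ¬ IsDesc P f w i) :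
    ∀ u ∈ wK P f K, len P w ≤ len P (w * u) :=
  min_of_lt P _ fun s hs => by
    obtain ⟨i, hi, rfl⟩ := hs
    have := len_mul_σ_ne P (f i) w
    have := h i hi
    unfold IsDesc at this
    omega

/-! ### Minimal representatives -/

theorem proj_injOn (K : Finset ι) {x y : G ⧸ P.B}
    (hx : ∀ i ∈ K, ¬ IsDesc P f (tyQ P x) i) (hy : ∀ i ∈ K, ¬ IsDesc P f (tyQ P y) i)
    (e : proj P f K x = proj P f K y) : x = y := by
  obtain ⟨g, rfl, hg⟩ := exists_rep P x
  obtain ⟨g', rfl, hg'⟩ := exists_rep P y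
  rw [proj_mk, proj_mk, QuotientGroup.eq, mem_par_iff] at e
  obtain ⟨u, hu, hp⟩ := e
  have hadd := len_mul_of_min P _ (min_of_no_desc P f hx) hu
  have h1 := cell_mul_of_len P hadd hg hp
  rw [mul_inv_cancel_left] at h1
  have he := cell_unique P hg' h1
  have h2 := min_of_no_desc P f hy u⁻¹ (inv_mem hu)
  rw [he, mul_inv_cancel_right, hadd] at h2
  have : u = 1 := eq_one_of_len P (by omega)
  subst this
  rw [mem_cell_one] at hp
  exact QuotientGroup.eq.2 hp

theorem exists_min_rep (K : Finset ι) (g : G) : ∃ (g₀ : G) (m : W P), g₀ ∈ cell P m ∧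
    (∀ i ∈ K, ¬ IsDesc P f m i) ∧ g₀⁻¹ * g ∈ par P f K ∧
    ∀ w, g ∈ cell P w → m⁻¹ * w ∈ wK P f K := by
  classical
  obtain ⟨w, hw⟩ := bruhat P g
  have hne : ∃ k, ∃ u ∈ wK P f K, len P (w * u) = k := ⟨_, 1, one_mem _, rfl⟩
  obtain ⟨u, hu, hk⟩ := Nat.find_spec hne
  have hm : ∀ v ∈ wPar P (f '' (K : Set ι)), len P (w * u) ≤ len P (w * u * v) := fun v hv => by
    rw [mul_assoc, hk]; exact Nat.find_min' hne ⟨u * v, mul_mem hu hv, rfl⟩
  have hw' : g ∈ cell P ((w * u) * u⁻¹) := by rwa [mul_inv_cancel_right]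
  obtain ⟨x, hx, y, hy, rfl⟩ := exists_mul_of_mem_cell_mul P hw'
  refine ⟨x, w * u, hx, fun i hi hd => ?_, ?_, fun w' hw'' => ?_⟩
  · have := lt_of_min P _ hm (s := f i) ⟨i, hi, rfl⟩
    unfold IsDesc at hd
    omega
  · rw [inv_mul_cancel_left, mem_par_iff]
    exact ⟨u⁻¹, inv_mem hu, hy⟩
  · rw [cell_unique P hw'' hw]
    rw [show (w * u)⁻¹ * w = u⁻¹ by group]
    exact inv_mem hu

/-- Minimal cosets of `B` biject with the cosets of `P_K`. -/
theorem proj_bijective (K : Finset ι) :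
    Function.Bijective fun x : {x : G ⧸ P.B // ∀ i ∈ K, ¬ IsDesc P f (tyQ P x) i} =>
      proj P f K x.1 := by
  refine ⟨fun x y e => Subtype.ext (proj_injOn P f K x.2 y.2 e), fun y => ?_⟩
  obtain ⟨g, rfl⟩ := QuotientGroup.mk_surjective y
  obtain ⟨g₀, m, hg₀, hm, hp, -⟩ := exists_min_rep P f K g
  refine ⟨⟨(g₀ : G ⧸ P.B), by rw [tyQ_mk P hg₀]; exact hm⟩, ?_⟩
  exact QuotientGroup.eq.2 hp

theorem inPar_iff_proj {K I : Finset ι} (hKI : K ⊆ I) (x : G ⧸ P.B) :
    InPar P f I x ↔ ∃ p ∈ par P f I, proj P f K x = (p : G ⧸ par P f K) := by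
  obtain ⟨g, rfl⟩ := QuotientGroup.mk_surjective x
  rw [inPar_mk_iff]
  refine ⟨fun h => ⟨g, h, rfl⟩, fun ⟨p, hp, e⟩ => ?_⟩
  rw [proj_mk, QuotientGroup.eq] at e
  have := mul_mem hp (inv_mem (par_mono P f hKI e))
  rwa [mul_inv_rev, inv_inv, mul_inv_cancel_left] at this

/-- The number of cosets of `P_K` inside `P_I` fixed by `g`. -/
noncomputable def fixIn (I K : Finset ι) (g : G) : ℕ :=
  Nat.card {y : G ⧸ par P f K // g • y = y ∧ ∃ p ∈ par P f I, y = (p : G ⧸ par P f K)}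

theorem fixIn_eq {K I : Finset ι} (hKI : K ⊆ I) {b : G} (hb : b ∈ P.B) :
    fixIn P f I K b = Nat.card {x : G ⧸ P.B //
      (b • x = x ∧ InPar P f I x) ∧ ∀ i ∈ K, ¬ IsDesc P f (tyQ P x) i} := by
  let F : {x : G ⧸ P.B // (b • x = x ∧ InPar P f I x) ∧ ∀ i ∈ K, ¬ IsDesc P f (tyQ P x) i} →
      {y : G ⧸ par P f K // b • y = y ∧ ∃ p ∈ par P f I, y = (p : G ⧸ par P f K)} :=
    fun x => ⟨proj P f K x.1, by rw [← proj_smul, x.2.1.1],
      (inPar_iff_proj P f hKI x.1).1 x.2.1.2⟩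
  refine (Nat.card_eq_of_bijective F ⟨?_, ?_⟩).symm
  · intro x y e
    exact Subtype.ext (proj_injOn P f K x.2.2 y.2.2 (congrArg Subtype.val e))
  · rintro ⟨y, hy1, hy2⟩
    obtain ⟨⟨x, hx⟩, rfl⟩ := (proj_bijective P f K).2 y
    refine ⟨⟨x, ⟨?_, (inPar_iff_proj P f hKI x).2 hy2⟩, hx⟩, rfl⟩
    refine proj_injOn P f K ?_ hx (by rw [proj_smul]; exact hy1)
    rw [tyQ_smul P hb]; exact hx

/-- Inclusion–exclusion over the subsets avoiding a predicate. -/
theorem sum_alt_card {α : Type*} [Finite α] (p : α → Prop) (q : α → ι → Prop) (I : Finset ι) :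
    ∑ K ∈ I.powerset, (-1 : ℤ) ^ K.card * Nat.card {x : α // p x ∧ ∀ i ∈ K, ¬ q x i} =
      Nat.card {x : α // p x ∧ ∀ i ∈ I, q x i} := by
  classical
  haveI := Fintype.ofFinite α
  simp only [Nat.card_eq_fintype_card, Fintype.card_subtype, Finset.card_filter, Nat.cast_sum,
    Finset.mul_sum]
  rw [Finset.sum_comm]
  refine Finset.sum_congr rfl fun x _ => ?_
  by_cases hp : p x
  · simp only [hp, true_and]
    have e : ∀ K ∈ I.powerset, (-1 : ℤ) ^ K.card * ((if ∀ i ∈ K, ¬ q x i then 1 else 0 : ℕ) : ℤ) =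
        if K ∈ (I.filter fun i => ¬ q x i).powerset then (-1 : ℤ) ^ K.card else 0 := by
      intro K hK
      rw [Finset.mem_powerset] at hK
      simp only [Finset.mem_powerset, Finset.subset_iff, Finset.mem_filter]
      split_ifs with h1 h2 h2
      · simp
      · exact absurd (fun i hi => ⟨hK hi, h1 i hi⟩) h2
      · exact absurd (fun i hi => (h2 hi).2) h1
      · simp
    rw [Finset.sum_congr rfl e, ← Finset.sum_filter,
      Finset.filter_mem_eq_inter, Finset.inter_eq_right.2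
        (Finset.powerset_mono.2 (Finset.filter_subset _ _)), Finset.sum_powerset_neg_one_pow_card]
    simp only [Finset.filter_eq_empty_iff, not_not]
    split_ifs <;> simp
  · simp [hp]

/-! ### The longest element -/

theorem exists_longest [Finite (W P)] (I : Finset ι) :
    ∃ w ∈ wK P f I, ∀ v ∈ wK P f I, len P v ≤ len P w := by
  haveI : Finite (wK P f I) := Subtype.finite
  obtain ⟨⟨w, hw⟩, h⟩ := Finite.exists_max fun v : wK P f I => len P (v : W P)
  exact ⟨w, hw, fun v hv => h ⟨v, hv⟩⟩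

/-- The longest element of `W_I`. -/
noncomputable def w0 [Finite (W P)] (I : Finset ι) : W P := (exists_longest P f I).choose

variable [Finite (W P)]

theorem w0_mem (I : Finset ι) : w0 P f I ∈ wK P f I := (exists_longest P f I).choose_spec.1

theorem w0_desc (I : Finset ι) {i : ι} (hi : i ∈ I) : IsDesc P f (w0 P f I) i := by
  have h1 := (exists_longest P f I).choose_spec.2 _ (mul_mem (w0_mem P f I) (σ_mem_wK P f hi))
  have h2 := len_mul_σ_ne P (f i) (w0 P f I)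
  rw [IsDesc]
  exact lt_of_le_of_ne h1 h2

theorem eq_w0 (I : Finset ι) {w : W P} (hw : w ∈ wK P f I) (hd : ∀ i ∈ I, IsDesc P f w i) :
    w = w0 P f I := by
  have h1 := len_of_all_descents P (f '' (I : Set ι)) (w := w)
    (fun s ⟨i, hi, e⟩ => e ▸ hd i hi) (w0_mem P f I)
  have h2 := (exists_longest P f I).choose_spec.2 w hw
  have : w * (w0 P f I)⁻¹ = 1 := eq_one_of_len P (by
    show len P _ = 0
    unfold w0 at h1 ⊢
    omega)
  exact mul_inv_eq_one.1 this

theorem w0_inv (I : Finset ι) : (w0 P f I)⁻¹ = w0 P f I := by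
  refine eq_w0 P f I (inv_mem (w0_mem P f I)) fun i hi => ?_
  have h1 := (exists_longest P f I).choose_spec.2 _
    (mul_mem (inv_mem (w0_mem P f I)) (σ_mem_wK P f hi))
  have h2 := len_mul_σ_ne P (f i) (w0 P f I)⁻¹
  rw [IsDesc]
  rw [len_inv] at h2 ⊢
  exact lt_of_le_of_ne h1 h2

/-- The cell of the longest element of `W_I`, in `G ⧸ B`. -/
abbrev Top (I : Finset ι) : Type _ := {x : G ⧸ P.B // tyQ P x = w0 P f I}

/-- The alternating sum. -/
noncomputable def alt (I : Finset ι) (g : G) : ℤ :=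
  ∑ K ∈ I.powerset, (-1 : ℤ) ^ K.card * fixIn P f I K g

theorem alt_eq [Finite G] (I : Finset ι) {b : G} (hb : b ∈ P.B) :
    alt P f I b = Nat.card {x : Top P f I // b • x.1 = x.1} := by
  rw [alt, Finset.sum_congr rfl fun K hK => by
    rw [fixIn_eq P f (Finset.mem_powerset.1 hK) hb], sum_alt_card]
  congr 1
  refine Nat.card_congr
    { toFun := fun x => ⟨⟨x.1, eq_w0 P f I x.2.1.2 x.2.2⟩, x.2.1.1⟩
      invFun := fun x => ⟨x.1.1, ⟨x.2, by rw [InPar, x.1.2]; exact w0_mem P f I⟩,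
        fun i hi => by rw [x.1.2]; exact w0_desc P f I hi⟩
      left_inv := fun _ => rfl
      right_inv := fun _ => rfl }

/-! ### Counting by maximal representatives -/

theorem card_fibre (K : Finset ι) {g₀ : G} {m : W P} (hg₀ : g₀ ∈ cell P m)
    (hm : ∀ i ∈ K, ¬ IsDesc P f m i) :
    Nat.card {x : G ⧸ P.B // proj P f K x = (g₀ : G ⧸ par P f K) ∧
      ∀ i ∈ K, IsDesc P f (tyQ P x) i} = Nat.card (Top P f K) := by
  have hadd : ∀ {u}, u ∈ wK P f K → len P (m * u) = len P m + len P u :=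
    fun hu => len_mul_of_min P _ (min_of_no_desc P f hm) hu
  have hty : ∀ {z : G} {u : W P}, u ∈ wK P f K → z ∈ cell P u →
      tyQ P ((g₀ * z : G) : G ⧸ P.B) = m * u := fun hu hz =>
    tyQ_mk P (cell_mul_of_len P (hadd hu) hg₀ hz)
  have h1 : ∀ z : Top P f K, proj P f K (g₀ • z.1) = (g₀ : G ⧸ par P f K) := by
    intro z
    obtain ⟨a, ha, hc⟩ := exists_rep P z.1
    rw [z.2] at hc
    rw [← ha]
    show ((g₀ * a : G) : G ⧸ par P f K) = _
    rw [eq_comm, QuotientGroup.eq, inv_mul_cancel_left, mem_par_iff]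
    exact ⟨_, w0_mem P f K, hc⟩
  have h2 : ∀ z : Top P f K, ∀ i ∈ K, IsDesc P f (tyQ P (g₀ • z.1)) i := by
    intro z
    obtain ⟨a, ha, hc⟩ := exists_rep P z.1
    rw [z.2] at hc
    intro i hi
    have e : tyQ P (g₀ • z.1) = m * w0 P f K := by rw [← ha]; exact hty (w0_mem P f K) hc
    rw [e, IsDesc, mul_assoc, hadd (mul_mem (w0_mem P f K) (σ_mem_wK P f hi)),
      hadd (w0_mem P f K)]
    have := w0_desc P f K hi
    unfold IsDesc at this
    omega
  let F : Top P f K → {x : G ⧸ P.B // proj P f K x = (g₀ : G ⧸ par P f K) ∧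
      ∀ i ∈ K, IsDesc P f (tyQ P x) i} := fun z => ⟨g₀ • z.1, h1 z, h2 z⟩
  refine (Nat.card_eq_of_bijective F ⟨?_, ?_⟩).symm
  · intro z z' e
    exact Subtype.ext (MulAction.injective g₀ (congrArg Subtype.val e))
  · rintro ⟨x, hx1, hx2⟩
    obtain ⟨g, rfl⟩ := QuotientGroup.mk_surjective x
    rw [proj_mk, eq_comm, QuotientGroup.eq, mem_par_iff] at hx1
    obtain ⟨u, hu, hz⟩ := hx1
    have e := hty hu hz
    rw [mul_inv_cancel_left] at e
    have hu0 : u = w0 P f K := eq_w0 P f K hu fun i hi => by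
      have := hx2 i hi
      rw [e, IsDesc, mul_assoc, hadd (mul_mem hu (σ_mem_wK P f hi)), hadd hu] at this
      unfold IsDesc
      omega
    refine ⟨⟨((g₀⁻¹ * g : G) : G ⧸ P.B), by rw [tyQ_mk P hz, hu0]⟩, Subtype.ext ?_⟩
    show ((g₀ * (g₀⁻¹ * g) : G) : G ⧸ P.B) = _
    rw [mul_inv_cancel_left]

/-- The number of cosets of `P_K` in `P_I`. -/
noncomputable def numIn (I K : Finset ι) : ℕ :=
  Nat.card {y : G ⧸ par P f K // ∃ p ∈ par P f I, y = (p : G ⧸ par P f K)}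

theorem card_max [Finite G] {K I : Finset ι} (hKI : K ⊆ I) :
    Nat.card {x : G ⧸ P.B // InPar P f I x ∧ ∀ i ∈ K, IsDesc P f (tyQ P x) i} =
      numIn P f I K * Nat.card (Top P f K) := by
  haveI := Fintype.ofFinite {y : G ⧸ par P f K // ∃ p ∈ par P f I, y = (p : G ⧸ par P f K)}
  let e : {x : G ⧸ P.B // InPar P f I x ∧ ∀ i ∈ K, IsDesc P f (tyQ P x) i} ≃
      Σ y : {y : G ⧸ par P f K // ∃ p ∈ par P f I, y = (p : G ⧸ par P f K)},
        {x : G ⧸ P.B // proj P f K x = y.1 ∧ ∀ i ∈ K, IsDesc P f (tyQ P x) i} :=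
    { toFun := fun x => ⟨⟨proj P f K x.1, (inPar_iff_proj P f hKI x.1).1 x.2.1⟩, x.1, rfl, x.2.2⟩
      invFun := fun z => ⟨z.2.1, (inPar_iff_proj P f hKI z.2.1).2 (by rw [z.2.2.1]; exact z.1.2),
        z.2.2.2⟩
      left_inv := fun _ => rfl
      right_inv := by
        rintro ⟨⟨y, hy⟩, x, h, h'⟩
        obtain rfl : proj P f K x = y := h
        rfl }
  rw [Nat.card_congr e, Nat.card_sigma, numIn, Nat.card_eq_fintype_card (α := {y // _}),
    ← Finset.card_univ, Finset.card_eq_sum_ones, Finset.sum_mul]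
  refine Finset.sum_congr rfl fun y _ => ?_
  obtain ⟨g, hg⟩ := QuotientGroup.mk_surjective y.1
  obtain ⟨g₀, m, hg₀, hm, hp, -⟩ := exists_min_rep P f K g
  rw [one_mul, ← card_fibre P f K hg₀ hm, ← hg, ← QuotientGroup.eq.2 hp]

/-- The dual identity. -/
theorem sum_numIn [Finite G] (I : Finset ι) :
    ∑ K ∈ I.powerset, (-1 : ℤ) ^ K.card * (numIn P f I K * Nat.card (Top P f K) : ℕ) = 1 := by
  have h : ∀ K ∈ I.powerset, (-1 : ℤ) ^ K.card * (numIn P f I K * Nat.card (Top P f K) : ℕ) =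
      (-1 : ℤ) ^ K.card * Nat.card {x : G ⧸ P.B // InPar P f I x ∧
        ∀ i ∈ K, ¬ (¬ IsDesc P f (tyQ P x) i)} := fun K hK => by
    rw [← card_max P f (Finset.mem_powerset.1 hK)]
    simp only [not_not]
  rw [Finset.sum_congr rfl h, sum_alt_card]
  have hu : ∀ x : G ⧸ P.B, InPar P f I x → (∀ i ∈ I, ¬ IsDesc P f (tyQ P x) i) →
      x = ((1 : G) : G ⧸ P.B) := by
    intro x hx hd
    obtain ⟨g, rfl, hg⟩ := exists_rep P x
    have h1 := min_of_no_desc P f hd (tyQ P (g : G ⧸ P.B))⁻¹ (inv_mem hx)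
    rw [mul_inv_cancel, len_one] at h1
    rw [eq_one_of_len P (Nat.le_zero.1 h1), mem_cell_one] at hg
    exact QuotientGroup.eq.2 (by simpa using inv_mem hg)
  have h1 : tyQ P ((1 : G) : G ⧸ P.B) = 1 := tyQ_mk P ((mem_cell_one P).2 (one_mem _))
  rw [Nat.cast_eq_one, Nat.card_eq_one_iff_unique]
  refine ⟨⟨fun x y => Subtype.ext ((hu _ x.2.1 x.2.2).trans (hu _ y.2.1 y.2.2).symm)⟩,
    ⟨⟨((1 : G) : G ⧸ P.B), ?_, fun i _ => ?_⟩⟩⟩
  · rw [InPar, h1]; exact one_mem _
  · rw [h1, IsDesc, one_mul, len_one, len_σ]; simp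

end CfsgLib.BNSteinberg
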