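import Cfsg.Agent.BNSteinberg.Alternating

/-!
# Weighted fixed point sums over parabolic subgroups and the number of `p`-elements

If `U ≤ B` is a Sylow `p`-subgroup whose elements fixing a point of the longest cell of `W_I` form
a subgroup `R_I` normalised by `P_I`, then `P_I` has `|U| · c_I` elements of `p`-power order, where
`c_I` is the size of that cell.
-/

set_option autoImplicit false

namespace CfsgLib.BNSteinberg

open CfsgLib.BNPair

variable {G : Type*} [Group G] (P : Cfsg.BNPair G) {ι : Type*} (f : ι → P.S)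

theorem fixIn_conj {I K : Finset ι} {t : G} (ht : t ∈ par P f I) (g : G) :
    fixIn P f I K (t * g * t⁻¹) = fixIn P f I K g := by
  have h1 : ∀ y : G ⧸ par P f K, g • y = y → (t * g * t⁻¹) • (t • y) = t • y := fun y h => by
    rw [smul_smul, inv_mul_cancel_right, mul_smul, h]
  have h2 : ∀ y : G ⧸ par P f K, (t * g * t⁻¹) • y = y → g • (t⁻¹ • y) = t⁻¹ • y := fun y h => by
    have h' := congrArg (fun z => t⁻¹ • z) h
    simp only [mul_smul, inv_smul_smul] at h'
    exact h'
  have h3 : ∀ {a : G}, a ∈ par P f I → ∀ y : G ⧸ par P f K,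
      (∃ p ∈ par P f I, y = (p : G ⧸ par P f K)) →
        ∃ p ∈ par P f I, a • y = (p : G ⧸ par P f K) := fun {a} ha y ⟨p, hp, e⟩ =>
    ⟨a * p, mul_mem ha hp, by rw [e]; rfl⟩
  exact (Nat.card_congr
    { toFun := fun y => ⟨t • y.1, h1 _ y.2.1, h3 ht _ y.2.2⟩
      invFun := fun y => ⟨t⁻¹ • y.1, h2 _ y.2.1, h3 (inv_mem ht) _ y.2.2⟩
      left_inv := fun y => Subtype.ext (inv_smul_smul t y.1)
      right_inv := fun y => Subtype.ext (smul_inv_smul t y.1) }).symm

theorem alt_conj {I : Finset ι} {t : G} (ht : t ∈ par P f I) (g : G) :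
    alt P f I (t * g * t⁻¹) = alt P f I g := by
  simp only [alt, fixIn_conj P f ht]

theorem fixIn_top {I : Finset ι} (htop : par P f I = ⊤) (K : Finset ι) (g : G) :
    fixIn P f I K g = Nat.card (MulAction.fixedBy (G ⧸ par P f K) g) :=
  Nat.card_congr
    { toFun := fun y => ⟨y.1, y.2.1⟩
      invFun := fun y => ⟨y.1, y.2, by
        obtain ⟨p, hp⟩ := QuotientGroup.mk_surjective y.1
        exact ⟨p, by rw [htop]; trivial, hp.symm⟩⟩
      left_inv := fun _ => rfl
      right_inv := fun _ => rfl }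

theorem numIn_self (I : Finset ι) : numIn P f I I = 1 := by
  rw [numIn, Nat.card_eq_one_iff_unique]
  refine ⟨⟨fun y y' => ?_⟩, ⟨⟨((1 : G) : G ⧸ par P f I), 1, one_mem _, rfl⟩⟩⟩
  obtain ⟨p, hp, e⟩ := y.2
  obtain ⟨p', hp', e'⟩ := y'.2
  exact Subtype.ext (e.trans (((QuotientGroup.eq).2 (mul_mem (inv_mem hp) hp')).trans e'.symm))

/-- Frobenius reciprocity for a function invariant under conjugation. -/
theorem sum_fixIn_mul [Fintype G] [DecidableEq G] {R : Type*} [CommSemiring R] {K I : Finset ι}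
    (hKI : K ⊆ I) (φ : G → R) (hφ : ∀ t g, φ (t * g * t⁻¹) = φ g)
    [DecidablePred (· ∈ par P f I)] [DecidablePred (· ∈ par P f K)] :
    ∑ g with g ∈ par P f I, (fixIn P f I K g : R) * φ g =
      (numIn P f I K : R) * ∑ h with h ∈ par P f K, φ h := by
  classical
  haveI : Fintype {y : G ⧸ par P f K // ∃ p ∈ par P f I, y = (p : G ⧸ par P f K)} :=
    Fintype.ofFinite _
  have e : ∀ g, (fixIn P f I K g : R) * φ g = ∑ y : {y : G ⧸ par P f K //
      ∃ p ∈ par P f I, y = (p : G ⧸ par P f K)}, if g • y.1 = y.1 then φ g else 0 := by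
    intro g
    rw [← Finset.sum_filter, Finset.sum_const, nsmul_eq_mul]
    congr 2
    rw [fixIn, ← Fintype.card_subtype, ← Nat.card_eq_fintype_card]
    exact Nat.card_congr
      { toFun := fun y => ⟨⟨y.1, y.2.2⟩, y.2.1⟩
        invFun := fun y => ⟨y.1.1, y.2, y.1.2⟩
        left_inv := fun _ => rfl
        right_inv := fun _ => rfl }
  rw [Finset.sum_congr rfl fun g _ => e g, Finset.sum_comm, numIn,
    Nat.card_eq_fintype_card (α := {y // _}), ← Finset.card_univ, Finset.card_eq_sum_ones,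
    Nat.cast_sum, Finset.sum_mul]
  refine Finset.sum_congr rfl fun y _ => ?_
  rw [Nat.cast_one, one_mul, ← Finset.sum_filter, Finset.filter_filter]
  obtain ⟨p, hp, hy⟩ := y.2
  refine Finset.sum_bij' (fun g _ => p⁻¹ * g * p) (fun h _ => p * h * p⁻¹) ?_ ?_ ?_ ?_ ?_
  · intro g hg
    simp only [Finset.mem_filter, Finset.mem_univ, true_and] at hg ⊢
    have h := hg.2
    rw [hy] at h
    change ((g * p : G) : G ⧸ par P f K) = _ at h
    rw [eq_comm, QuotientGroup.eq, ← mul_assoc] at h
    exact h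
  · intro h hh
    simp only [Finset.mem_filter, Finset.mem_univ, true_and] at hh ⊢
    refine ⟨mul_mem (mul_mem hp (par_mono P f hKI hh)) (inv_mem hp), ?_⟩
    rw [hy]
    show ((p * h * p⁻¹ * p : G) : G ⧸ par P f K) = _
    rw [eq_comm, QuotientGroup.eq]
    simpa [mul_assoc] using hh
  · intro g _; group
  · intro h _; group
  · intro g _
    conv_lhs => rw [show g = p * (p⁻¹ * g * p) * p⁻¹ by group, hφ]

variable (p : ℕ)

/-- The element has `p`-power order. -/
def IsPEl (g : G) : Prop := ∃ k : ℕ, orderOf g = p ^ k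

theorem isPEl_conj (t g : G) : IsPEl p (t * g * t⁻¹) ↔ IsPEl p g := by
  unfold IsPEl
  rw [show t * g * t⁻¹ = MulAut.conj t g from rfl, MulEquiv.orderOf_eq]

/-- `p`-elements of a subgroup containing a Sylow subgroup are conjugate into it. -/
theorem exists_conj_mem [Finite G] [hp : Fact p.Prime] {U H : Subgroup G} (hUH : U ≤ H)
    (hU : IsPGroup p U) (hidx : ¬ p ∣ U.index) {g : G} (hg : g ∈ H) (hpe : IsPEl p g) :
    ∃ t ∈ H, t * g * t⁻¹ ∈ U := by
  have hidx' : ¬ p ∣ (U.subgroupOf H).index := fun h =>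
    hidx (h.trans (U.relIndex_dvd_index_of_le hUH))
  have hU' : IsPGroup p (U.subgroupOf H) :=
    hU.of_equiv (Subgroup.subgroupOfEquivOfLe hUH).symm
  let Q : Sylow p H := hU'.toSylow hidx'
  obtain ⟨k, hk⟩ := hpe
  have hz : IsPGroup p (Subgroup.zpowers (⟨g, hg⟩ : H)) := by
    refine IsPGroup.of_card (n := k) ?_
    rw [Nat.card_zpowers, Subgroup.orderOf_mk]
    exact hk
  obtain ⟨Q', hQ'⟩ := hz.exists_le_sylow
  obtain ⟨t, ht⟩ := MulAction.exists_smul_eq H Q' Q
  refine ⟨t, t.2, ?_⟩
  have h1 : t * ⟨g, hg⟩ * t⁻¹ ∈ (↑(t • Q') : Subgroup H) := by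
    rw [Sylow.smul_def, Sylow.pointwise_smul_def, Subgroup.mem_pointwise_smul_iff_inv_smul_mem]
    have e : (MulAut.conj t)⁻¹ • (t * ⟨g, hg⟩ * t⁻¹) = (⟨g, hg⟩ : H) := by
      simp [MulAut.smul_def, mul_assoc]
    rw [e]
    exact hQ' (Subgroup.mem_zpowers _)
  rw [ht] at h1
  exact h1

/-- The number of `p`-elements in `P_I`. -/
theorem card_pEl_par [Finite G] [Finite (W P)] [Fact p.Prime] {U : Subgroup G} (hUB : U ≤ P.B)
    (hU : IsPGroup p U) (hidx : ¬ p ∣ U.index) (R : Finset ι → Subgroup G)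
    (hRU : ∀ I, R I ≤ U) (hnorm : ∀ I, ∀ t ∈ par P f I, ∀ g ∈ R I, t * g * t⁻¹ ∈ R I)
    (hfix : ∀ I, ∀ u ∈ U, ∀ x : Top P f I, u • x.1 = x.1 ↔ u ∈ R I)
    (hcard : ∀ I, Nat.card (R I) * Nat.card (Top P f I) = Nat.card U) (I : Finset ι) :
    Nat.card {g : G // g ∈ par P f I ∧ IsPEl p g} = Nat.card U * Nat.card (Top P f I) := by
  classical
  haveI := Fintype.ofFinite G
  induction I using Finset.strongInduction with
  | _ I ih =>
    have hB : ∀ K, P.B ≤ par P f K := fun K => le_sup_left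
    have hpe : ∀ J : Finset ι, (Nat.card {g : G // g ∈ par P f J ∧ IsPEl p g} : ℤ) =
        ∑ h with h ∈ par P f J, if IsPEl p h then (1 : ℤ) else 0 := by
      intro J
      rw [Finset.sum_boole, Finset.filter_filter, Nat.card_eq_fintype_card, Fintype.card_subtype]
    -- the sum of the alternating function over the p-elements
    have key : ∑ g with g ∈ par P f I, alt P f I g * (if IsPEl p g then (1 : ℤ) else 0) =
        Nat.card U := by
      have hval : ∀ g ∈ par P f I, alt P f I g * (if IsPEl p g then (1 : ℤ) else 0) =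
          if g ∈ R I then (Nat.card (Top P f I) : ℤ) else 0 := by
        intro g hg
        by_cases hgR : g ∈ R I
        · obtain ⟨k, hk⟩ := IsPGroup.iff_orderOf.1 hU ⟨g, hRU I hgR⟩
          rw [if_pos hgR, if_pos ⟨k, by rw [← hk, Subgroup.orderOf_mk]⟩, mul_one,
            alt_eq P f I (hUB (hRU I hgR))]
          congr 1
          exact Nat.card_congr (Equiv.subtypeUnivEquiv fun x => (hfix I g (hRU I hgR) x).2 hgR)
        rw [if_neg hgR]
        split_ifs with hgp
        · obtain ⟨t, ht, htU⟩ := exists_conj_mem p (hUB.trans (hB I)) hU hidx hg hgp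
          rw [mul_one, ← alt_conj P f ht g, alt_eq P f I (hUB htU), Nat.cast_eq_zero,
            Nat.card_eq_zero]
          refine Or.inl ⟨fun x => hgR ?_⟩
          have := hnorm I t⁻¹ (inv_mem ht) _ ((hfix I _ htU x.1).1 x.2)
          rwa [show t⁻¹ * (t * g * t⁻¹) * t⁻¹⁻¹ = g by group] at this
        · rw [mul_zero]
      rw [Finset.sum_congr rfl fun g hg => hval g (Finset.mem_filter.1 hg).2, ← Finset.sum_filter,
        Finset.sum_const, nsmul_eq_mul, Finset.filter_filter]
      rw [← hcard I, Nat.cast_mul, ← Fintype.card_subtype, ← Nat.card_eq_fintype_card]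
      congr 2
      exact Nat.card_congr (Equiv.subtypeEquivRight fun g =>
        ⟨And.right, fun h => ⟨hB I (hUB (hRU I h)), h⟩⟩)
    simp only [alt, Finset.sum_mul, mul_assoc] at key
    rw [Finset.sum_comm, Finset.sum_congr rfl fun K hK => by
      rw [← Finset.mul_sum, sum_fixIn_mul P f (Finset.mem_powerset.1 hK)
        (fun g => if IsPEl p g then (1 : ℤ) else 0)
        (fun t g => by simp only [isPEl_conj]), ← hpe]] at key
    have h2 := congrArg (fun z : ℤ => (Nat.card U : ℤ) * z) (sum_numIn P f I)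
    simp only [Finset.mul_sum, mul_one] at h2
    rw [← h2, ← Finset.add_sum_erase _ _ (Finset.mem_powerset_self I),
      ← Finset.add_sum_erase _ _ (Finset.mem_powerset_self I),
      Finset.sum_congr rfl (g := fun K => (Nat.card U : ℤ) *
        ((-1 : ℤ) ^ K.card * (numIn P f I K * Nat.card (Top P f K) : ℕ))) fun K hK => by
        obtain ⟨hne, hKI⟩ := Finset.mem_erase.1 hK
        rw [ih K ((Finset.mem_powerset.1 hKI).ssubset_of_ne hne)]
        push_cast; ring,
      add_left_inj, numIn_self] at key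
    push_cast at key
    have hsgn : ((-1 : ℤ) ^ I.card) ≠ 0 := pow_ne_zero _ (by norm_num)
    have : (Nat.card {g : G // g ∈ par P f I ∧ IsPEl p g} : ℤ) =
        (Nat.card U : ℤ) * Nat.card (Top P f I) := mul_left_cancel₀ hsgn (by linarith)
    exact_mod_cast this

end CfsgLib.BNSteinberg
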