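import Cfsg.Agent.BNSteinberg.Orbits

/-!
# The alternating sum over a coset of the radical of an elliptic element

Let `R` be a normal subgroup of `P_J`, inside `B`, such that `B = R (B ∩ ⁿB)` for every `n` without
descent in `J` on the left. If `g ∈ P_J` is not conjugate in `P_J` into a smaller parabolic
subgroup, the mean of the alternating sum over `g R` is `±1`.
-/

set_option autoImplicit false
set_option linter.unusedSectionVars false
set_option linter.unusedDecidableInType false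

namespace CfsgLib.BNSteinberg

open CfsgLib.BNPair

variable {G : Type*} [Group G] (P : Cfsg.BNPair G) {ι : Type*} (f : ι → P.S)

/-- The fixed points on a coset space along a coset of a normalised subgroup. -/
theorem sum_fixedBy_coset [Finite G] {X : Type*} [MulAction G X] [Finite X] (R : Subgroup G)
    [Fintype R] (g : G) (hg : ∀ r ∈ R, g⁻¹ * r * g ∈ R) :
    ∑ r : R, Nat.card (MulAction.fixedBy X (g * (r : G))) =
      Nat.card {O : MulAction.orbitRel.Quotient R X // g⁻¹ • O.out ∈ MulAction.orbit R O.out} *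
        Nat.card R := by
  classical
  haveI := Fintype.ofFinite X
  haveI := Fintype.ofFinite (MulAction.orbitRel.Quotient R X)
  have h1 : ∀ r : R, Nat.card (MulAction.fixedBy X (g * (r : G))) =
      ∑ y : X, if (r : G) • y = g⁻¹ • y then 1 else 0 := by
    intro r
    rw [Finset.sum_boole, Nat.cast_id, ← Fintype.card_subtype, ← Nat.card_eq_fintype_card]
    exact Nat.card_congr (Equiv.subtypeEquivRight fun y => by
      rw [MulAction.mem_fixedBy, mul_smul, eq_inv_smul_iff])
  have h2 : ∀ y : X, (∑ r : R, if (r : G) • y = g⁻¹ • y then 1 else 0) =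
      if g⁻¹ • y ∈ MulAction.orbit R y then Nat.card (MulAction.stabilizer R y) else 0 := by
    intro y
    rw [Finset.sum_boole, Nat.cast_id, ← Fintype.card_subtype, ← Nat.card_eq_fintype_card]
    split_ifs with h
    · obtain ⟨r₀, hr₀⟩ := MulAction.mem_orbit_iff.1 h
      refine Nat.card_congr
        { toFun := fun r => ⟨r₀⁻¹ * r.1, ?_⟩
          invFun := fun a => ⟨r₀ * a.1, ?_⟩
          left_inv := fun r => Subtype.ext (mul_inv_cancel_left _ _)
          right_inv := fun a => Subtype.ext (inv_mul_cancel_left _ _) }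
      · rw [MulAction.mem_stabilizer_iff, mul_smul, show r.1 • y = g⁻¹ • y from r.2, ← hr₀, inv_smul_smul]
      · show (r₀ * a.1) • y = g⁻¹ • y
        rw [mul_smul, MulAction.mem_stabilizer_iff.1 a.2, hr₀]
    · rw [Nat.card_eq_zero]
      exact Or.inl ⟨fun r => h ⟨r.1, r.2⟩⟩
  have hinv : ∀ y : X, ∀ a : R, g⁻¹ • y ∈ MulAction.orbit R y →
      g⁻¹ • (a • y) ∈ MulAction.orbit R (a • y) := by
    intro y a h
    obtain ⟨r₀, hr₀⟩ := MulAction.mem_orbit_iff.1 h
    rw [MulAction.orbit_eq_iff.2 (MulAction.mem_orbit y a)]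
    refine ⟨(⟨_, hg a a.2⟩ : R) * r₀, ?_⟩
    show ((⟨_, hg a a.2⟩ : R) * r₀) • y = g⁻¹ • (a • y)
    rw [mul_smul, hr₀]
    show (g⁻¹ * (a : G) * g) • g⁻¹ • y = g⁻¹ • ((a : G) • y)
    rw [smul_smul, smul_smul, mul_inv_cancel_right]
  rw [Finset.sum_congr rfl fun r _ => h1 r, Finset.sum_comm, Finset.sum_congr rfl fun y _ => h2 y]
  have hfib : ∀ O : MulAction.orbitRel.Quotient R X,
      ∑ y ∈ Finset.univ.filter (fun y : X => (Quotient.mk'' y : MulAction.orbitRel.Quotient R X) = O),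
        (if g⁻¹ • y ∈ MulAction.orbit R y then Nat.card (MulAction.stabilizer R y) else 0) =
      if g⁻¹ • O.out ∈ MulAction.orbit R O.out then Nat.card R else 0 := by
    intro O
    have hF : ∀ y : X, (Quotient.mk'' y : MulAction.orbitRel.Quotient R X) = O ↔
        y ∈ MulAction.orbit R O.out := by
      intro y
      conv_lhs => rw [← O.out_eq']
      rw [Quotient.eq'', MulAction.orbitRel_apply]
    have hterm : ∀ y ∈ Finset.univ.filter
        (fun y : X => (Quotient.mk'' y : MulAction.orbitRel.Quotient R X) = O),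
        (if g⁻¹ • y ∈ MulAction.orbit R y then Nat.card (MulAction.stabilizer R y) else 0) =
          if g⁻¹ • O.out ∈ MulAction.orbit R O.out then Nat.card (MulAction.stabilizer R O.out) else 0 := by
      intro y hy
      obtain ⟨a, ha⟩ := MulAction.mem_orbit_iff.1 ((hF y).1 (Finset.mem_filter.1 hy).2)
      have e : Nat.card (MulAction.stabilizer R y) = Nat.card (MulAction.stabilizer R O.out) := by
        rw [← ha]
        exact (Nat.card_congr (MulAction.stabilizerEquivStabilizer (g := a) rfl).toEquiv).symm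
      rw [e]
      refine if_congr ⟨fun h => ?_, fun h => ha ▸ hinv _ a h⟩ rfl rfl
      have := hinv y a⁻¹ h
      rwa [← ha, inv_smul_smul] at this
    rw [Finset.sum_congr rfl hterm, Finset.sum_const, smul_eq_mul]
    split_ifs with h
    · rw [← Fintype.card_subtype, ← Nat.card_eq_fintype_card,
        Nat.card_congr (Equiv.subtypeEquivRight hF), ← Nat.card_prod]
      exact Nat.card_congr (MulAction.orbitProdStabilizerEquivGroup R O.out)
    · rw [mul_zero]
  rw [← Finset.sum_fiberwise_of_maps_to (t := Finset.univ)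
    (g := fun y : X => (Quotient.mk'' y : MulAction.orbitRel.Quotient R X)) fun y _ => Finset.mem_univ _,
    Finset.sum_congr rfl fun O _ => hfib O, ← Finset.sum_filter, Finset.sum_const, smul_eq_mul,
    ← Fintype.card_subtype, ← Nat.card_eq_fintype_card]

variable [Finite G] [Finite (W P)] [Fintype ι] [DecidableEq ι]

/-- The types of the orbits of the radical on `G / P_K` fixed by `P_J`. -/
def Stable (J K : Finset ι) (m : W P) : Prop :=
  (∀ k ∈ K, ¬ IsDesc P f m k) ∧ ∀ i ∈ J, m⁻¹ * σ P (f i) * m ∈ wK P f K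

theorem lmin_of_stable {J K : Finset ι} {m : W P} (h : Stable P f J K m) :
    ∀ i ∈ J, ¬ IsDesc P f m⁻¹ i := by
  intro i hi hd
  have e := len_add_right P f h.1 (h.2 i hi)
  rw [show m * (m⁻¹ * σ P (f i) * m) = σ P (f i) * m by group] at e
  rw [IsDesc, show m⁻¹ * σ P (f i) = (σ P (f i) * m)⁻¹ by rw [mul_inv_rev, σ_inv], len_inv,
    len_inv] at hd
  omega

theorem wK_univ (htop : par P f Finset.univ = ⊤) (w : W P) : w ∈ wK P f Finset.univ := by
  obtain ⟨g, hg⟩ := cell_nonempty P w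
  obtain ⟨v, hv, hgv⟩ := (mem_par_iff P f Finset.univ g).1 (by rw [htop]; trivial)
  exact cell_unique P hg hgv ▸ hv

theorem card_fixed_orbits (htop : par P f Finset.univ = ⊤) (J K : Finset ι) (R : Subgroup G)
    (hRB : R ≤ P.B) (hRn : ∀ t ∈ par P f J, ∀ r ∈ R, t * r * t⁻¹ ∈ R)
    (hsplit : ∀ (n : G) (hn : n ∈ P.N), (∀ i ∈ J, ¬ IsDesc P f (mk P n hn)⁻¹ i) →
      ∀ b ∈ P.B, ∃ r ∈ R, n⁻¹ * (r⁻¹ * b) * n ∈ P.B)
    (g : G) (hg : g ∈ par P f J) (hell : ∀ J', J' ⊂ J → ∀ t ∈ par P f J, t * g * t⁻¹ ∉ par P f J') :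
    Nat.card {O : MulAction.orbitRel.Quotient R (G ⧸ par P f K) //
        g⁻¹ • O.out ∈ MulAction.orbit R O.out} = Nat.card {m : W P // Stable P f J K m} := by
  classical
  choose n hn hne using fun w : W P => exists_mk P w
  have hncell : ∀ w, n w ∈ cell P w := fun w => by
    have := rep_mem_cell P (hn w)
    rwa [hne] at this
  let y0 : W P → G ⧸ par P f K := fun w => ((n w : G) : G ⧸ par P f K)
  have horb : ∀ (x y : G ⧸ par P f K), x ∈ MulAction.orbit R y ↔ ∃ r ∈ R, r • y = x := fun x y =>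
    ⟨fun ⟨r, e⟩ => ⟨r, r.2, e⟩, fun ⟨r, hr, e⟩ => ⟨⟨r, hr⟩, e⟩⟩
  -- the stabiliser of an orbit in `P_J`
  let St : (G ⧸ par P f K) → Subgroup G := fun y =>
    { carrier := {t | t ∈ par P f J ∧ ∃ r ∈ R, t • y = r • y}
      one_mem' := ⟨one_mem _, 1, one_mem _, rfl⟩
      mul_mem' := fun {a b} ⟨ha, r, hr, ea⟩ ⟨hb, s, hs, eb⟩ => ⟨mul_mem ha hb, a * s * a⁻¹ * r,
        mul_mem (hRn a ha s hs) hr, by
        rw [mul_smul a b, eb, mul_smul (a * s * a⁻¹) r, ← ea, smul_smul, smul_smul]
        group⟩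
      inv_mem' := fun {a} ⟨ha, r, hr, ea⟩ => ⟨inv_mem ha, a⁻¹ * r⁻¹ * a, by
        have := hRn a⁻¹ (inv_mem ha) r⁻¹ (inv_mem hr)
        rwa [inv_inv] at this, by
        rw [mul_smul, mul_smul, ea, inv_smul_smul]⟩ }
  have hBJ : P.B ≤ par P f J := le_sup_left
  have hRJ : R ≤ par P f J := hRB.trans hBJ
  have hB : ∀ m : W P, (∀ i ∈ J, ¬ IsDesc P f m⁻¹ i) → P.B ≤ St (y0 m) := by
    intro m hm b hb
    obtain ⟨r, hr, h⟩ := hsplit (n m) (hn m) (by rw [hne]; exact hm) b hb
    refine ⟨hBJ hb, r, hr, ?_⟩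
    show ((b * n m : G) : G ⧸ par P f K) = ((r * n m : G) : G ⧸ par P f K)
    rw [eq_comm, QuotientGroup.eq]
    refine (le_sup_left : P.B ≤ par P f K) ?_
    convert h using 1
    group
  have hstab : ∀ m, Stable P f J K m → par P f J ≤ St (y0 m) := by
    intro m hm
    refine sup_le (hB m (lmin_of_stable P f hm)) ((Subgroup.closure_le _).2 ?_)
    rintro _ ⟨i, hi, rfl⟩
    refine ⟨(le_sup_right : _ ≤ par P f J) (Subgroup.subset_closure ⟨i, hi, rfl⟩), 1, one_mem _, ?_⟩
    rw [one_smul]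
    show (((f i : G) * n m : G) : G ⧸ par P f K) = ((n m : G) : G ⧸ par P f K)
    rw [QuotientGroup.eq, mem_par_iff]
    refine ⟨(m⁻¹ * σ P (f i) * m)⁻¹, inv_mem (hm.2 i hi), ?_⟩
    have hN : ((f i : G) * n m)⁻¹ * n m ∈ P.N :=
      mul_mem (inv_mem (mul_mem (P.subset (f i).2) (hn m))) (hn m)
    have := rep_mem_cell P hN
    rwa [← mk_mul P (inv_mem (mul_mem (P.subset (f i).2) (hn m))) (hn m), ← mk_inv P (mul_mem (P.subset (f i).2) (hn m)),
      ← mk_mul P (P.subset (f i).2) (hn m), hne, show (mk P (f i : G) (P.subset (f i).2) * m)⁻¹ * m =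
        (m⁻¹ * σ P (f i) * m)⁻¹ by rw [σ]; group] at this
  -- every element of `R m` lies in a cell of `m W_K`
  have hcell : ∀ m, (∀ k ∈ K, ¬ IsDesc P f m k) → ∀ r ∈ R, ∀ q ∈ par P f K,
      ∃ u ∈ wK P f K, r * n m * q ∈ cell P (m * u) := by
    intro m hm r hr q hq
    obtain ⟨u, hu, hqu⟩ := (mem_par_iff P f K q).1 hq
    refine ⟨u, hu, ?_⟩
    rw [mul_assoc]
    exact B_mul_mem_cell P (hRB hr) (cell_mul_of_len P (len_add_right P f hm hu) (hncell m) hqu)
  let F : {m : W P // Stable P f J K m} → MulAction.orbitRel.Quotient R (G ⧸ par P f K) :=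
    fun m => Quotient.mk'' (y0 m.1)
  have hFmem : ∀ m, g⁻¹ • (F m).out ∈ MulAction.orbit R (F m).out := by
    intro m
    have h1 : (F m).out ∈ MulAction.orbit R (y0 m.1) := by
      rw [← MulAction.orbitRel_apply]
      exact Quotient.mk_out' (y0 m.1)
    obtain ⟨a, ha, e⟩ := (horb _ _).1 h1
    rw [MulAction.orbit_eq_iff.2 h1, ← e]
    obtain ⟨hgJ, r, hr, er⟩ := hstab m.1 m.2 (inv_mem hg)
    refine (horb _ _).2 ⟨g⁻¹ * a * g * r, mul_mem ?_ hr, ?_⟩
    · have := hRn g⁻¹ hgJ a ha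
      rwa [inv_inv] at this
    · rw [mul_smul, ← er, smul_smul, smul_smul]
      group
  refine (Nat.card_eq_of_bijective (fun m => (⟨F m, hFmem m⟩ :
    {O : MulAction.orbitRel.Quotient R (G ⧸ par P f K) // g⁻¹ • O.out ∈ MulAction.orbit R O.out}))
    ⟨fun m m' h => ?_, fun O => ?_⟩).symm
  · have h' : F m = F m' := congrArg Subtype.val h
    rw [Quotient.eq'', MulAction.orbitRel_apply] at h'
    obtain ⟨r, hr, e⟩ := (horb _ _).1 h'
    change ((r * n m'.1 : G) : G ⧸ par P f K) = _ at e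
    rw [QuotientGroup.eq] at e
    obtain ⟨u, hu, h2⟩ := hcell m'.1 m'.2.1 r hr _ e
    rw [mul_inv_cancel_left] at h2
    have hm := cell_unique P (hncell m.1) h2
    have l1 := len_add_right P f m.2.1 (inv_mem hu)
    have l2 := len_add_right P f m'.2.1 hu
    rw [hm, mul_inv_cancel_right, l2, len_inv] at l1
    refine Subtype.ext ?_
    rw [hm, eq_one_of_len P (w := u) (by omega), mul_one]
  · obtain ⟨O, hO⟩ := O
    obtain ⟨x, hx⟩ := QuotientGroup.mk_surjective O.out
    obtain ⟨w, hw⟩ := bruhat P x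
    obtain ⟨a, ha, b, hb, m, rfl, hm, -⟩ := exists_double_min P f J K w
    obtain ⟨y, hy, z, hz, rfl⟩ := exists_mul_of_mem_cell_mul P hw
    obtain ⟨x', hx', v, hv, rfl⟩ := exists_mul_of_mem_cell_mul P hy
    obtain ⟨k, hk, hkm, b₁, hb₁, b₂, hb₂, rfl⟩ := (mem_cell P).1 hv
    set t := x' * b₁ with ht
    have htJ : t ∈ par P f J := mul_mem ((mem_par_iff P f J x').2 ⟨a, ha, hx'⟩) (hBJ hb₁)
    have hbK : P.B ≤ par P f K := le_sup_left
    have hO' : O.out = t • y0 m := by
      rw [← hx]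
      show _ = ((t * n m : G) : G ⧸ par P f K)
      rw [eq_comm, QuotientGroup.eq]
      rw [show (t * n m)⁻¹ * (x' * (b₁ * k * b₂) * z) = ((n m)⁻¹ * k) * b₂ * z by rw [ht]; group]
      exact mul_mem (mul_mem (hbK ((mk_eq_iff P (hn m) hk).1 (by rw [hkm, hne]))) (hbK hb₂))
        ((mem_par_iff P f K z).2 ⟨b, hb, hz⟩)
    have hgt : t⁻¹ * g⁻¹ * t ∈ St (y0 m) := by
      refine ⟨mul_mem (mul_mem (inv_mem htJ) (inv_mem hg)) htJ, ?_⟩
      obtain ⟨r, hr, e⟩ := (horb _ _).1 hO
      rw [hO'] at e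
      refine ⟨t⁻¹ * r * t, by
        have := hRn t⁻¹ (inv_mem htJ) r hr
        rwa [inv_inv] at this, ?_⟩
      simp only [mul_smul]
      rw [e]
    set M := St (y0 m)
    have hMB : P.B ≤ M := hB m hm.1
    have hM := eq_parabolic P M hMB
    set J' := J.filter fun i => (f i : G) ∈ M
    have hMJ : M = par P f J' := by
      rw [hM, par]
      congr 1
      ext s
      simp only [Set.mem_inter_iff, SetLike.mem_coe, Set.mem_image, Finset.mem_coe, J', Finset.mem_filter]
      constructor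
      · rintro ⟨hs, hsM⟩
        obtain ⟨i, hi, rfl⟩ := mem_of_mem_parabolic P (image_subset P f J) hs hsM.1
        exact ⟨i, ⟨Finset.mem_coe.1 hi, hsM⟩, rfl⟩
      · rintro ⟨i, ⟨-, hiM⟩, rfl⟩
        exact ⟨(f i).2, hiM⟩
    have hJ' : J' = J := by
      by_contra hne'
      refine hell J' ((Finset.filter_subset _ _).ssubset_of_ne hne') t⁻¹ (inv_mem htJ) ?_
      rw [← hMJ, inv_inv, show t⁻¹ * g * t = (t⁻¹ * g⁻¹ * t)⁻¹ by group]
      exact inv_mem hgt
    have hiM : ∀ i ∈ J, (f i : G) ∈ M := fun i hi => by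
      rw [← hJ'] at hi
      exact (Finset.mem_filter.1 hi).2
    have hst : Stable P f J K m := by
      refine ⟨hm.2, fun i hi => ?_⟩
      obtain ⟨-, r, hr, e⟩ := hiM i hi
      change (((f i : G) * n m : G) : G ⧸ par P f K) = ((r * n m : G) : G ⧸ par P f K) at e
      rw [eq_comm, QuotientGroup.eq] at e
      obtain ⟨u, hu, h2⟩ := hcell m hm.2 r hr _ e
      rw [mul_inv_cancel_left] at h2
      have h3 := rep_mem_cell P (mul_mem (P.subset (f i).2) (hn m))
      rw [← mk_mul P (P.subset (f i).2) (hn m), hne] at h3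
      have e' : σ P (f i) * m = m * u := cell_unique P h3 h2
      rw [mul_assoc, e', inv_mul_cancel_left]
      exact hu
    refine ⟨⟨m, hst⟩, Subtype.ext ?_⟩
    show (Quotient.mk'' (y0 m) : MulAction.orbitRel.Quotient R (G ⧸ par P f K)) = O
    conv_rhs => rw [← O.out_eq']
    rw [Quotient.eq'', MulAction.orbitRel_apply, hO']
    have htM : t ∈ M := by rw [hMJ, hJ']; exact htJ
    obtain ⟨-, r, hr, e⟩ := htM
    exact (horb _ _).2 ⟨r⁻¹, inv_mem hr, by rw [e, inv_smul_smul]⟩

theorem w0_conj_len (htop : par P f Finset.univ = ⊤) (v : W P) :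
    len P (v * w0 P f Finset.univ) + len P v = len P (w0 P f Finset.univ) := by
  have h := len_of_all_descents P (f '' ((Finset.univ : Finset ι) : Set ι)) (w := w0 P f Finset.univ)
    (fun s ⟨i, hi, e⟩ => e ▸ w0_desc P f Finset.univ hi) (wK_univ P f htop v)
  rwa [← len_inv P (w0 P f Finset.univ * v⁻¹), mul_inv_rev, inv_inv, w0_inv] at h

theorem exists_simple_of_len {K : Finset ι} {u : W P} (hu : u ∈ wK P f K) (h : len P u = 1) :
    ∃ k ∈ K, u = σ P (f k) := by
  obtain ⟨L, hLK, hlen, rfl⟩ := exists_reduced_mem P _ hu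
  rw [h] at hlen
  obtain ⟨s, rfl⟩ := List.length_eq_one_iff.1 hlen
  obtain ⟨k, hk, rfl⟩ := hLK s List.mem_cons_self
  exact ⟨k, hk, by simp⟩

theorem mem_of_desc_w0 (hf : Function.Injective f) {J : Finset ι} {k : ι}
    (h : IsDesc P f (w0 P f J) k) : k ∈ J := by
  obtain ⟨L, hLJ, hlen, hL⟩ := exists_reduced_mem P _ (w0_mem P f J)
  obtain ⟨A, r, B, e, he⟩ := exchange_right P (f k) L (by rw [hL]; exact le_of_lt h)
  have h1 : wd P (A ++ B) ∈ wPar P (f '' (J : Set ι)) := by
    refine list_prod_mem fun x hx => ?_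
    obtain ⟨s, hs, rfl⟩ := List.mem_map.1 hx
    refine σ_mem_wPar P (hLJ s ?_)
    rw [e]
    rcases List.mem_append.1 hs with h | h
    · exact List.mem_append_left _ h
    · exact List.mem_append_right _ (List.mem_cons_of_mem _ h)
  rw [← he, hL] at h1
  have h2 := mul_mem (inv_mem (w0_mem P f J)) h1
  rw [inv_mul_cancel_left] at h2
  obtain ⟨i, hi, e'⟩ := (σ_mem_wPar_iff P _ _).1 h2
  exact hf e' ▸ hi

theorem w0_sq (I : Finset ι) : w0 P f I * w0 P f I = 1 :=
  mul_eq_one_iff_eq_inv.2 (w0_inv P f I).symm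

theorem sum_stable (htop : par P f Finset.univ = ⊤) (hf : Function.Injective f) (J : Finset ι) :
    ∃ ε : ℤ, (ε = 1 ∨ ε = -1) ∧
      ∑ K ∈ (Finset.univ : Finset ι).powerset, (-1 : ℤ) ^ K.card * Nat.card {m : W P // Stable P f J K m} = ε := by
  classical
  haveI := Fintype.ofFinite (W P)
  set wJ := w0 P f J
  set w₀ := w0 P f (Finset.univ : Finset ι)
  let T : W P → Prop := fun m => ∀ i ∈ J, ∃ k, σ P (f i) * m = m * σ P (f k) ∧ ¬ IsDesc P f m k
  let Km : W P → Finset ι := fun m => Finset.univ.filter fun k => ∃ i ∈ J, σ P (f i) * m = m * σ P (f k)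
  let Am : W P → Finset ι := fun m => Finset.univ.filter fun k => ¬ IsDesc P f m k
  have hiff : ∀ K m, Stable P f J K m ↔ T m ∧ Km m ⊆ K ∧ K ⊆ Am m := by
    intro K m
    constructor
    · intro h
      have hk : ∀ i ∈ J, ∃ k ∈ K, σ P (f i) * m = m * σ P (f k) := by
        intro i hi
        have e := len_add_right P f h.1 (h.2 i hi)
        rw [show m * (m⁻¹ * σ P (f i) * m) = σ P (f i) * m by group,
          len_add_left P f (lmin_of_stable P f h) (σ_mem_wK P f hi), len_σ] at e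
        obtain ⟨k, hk, e'⟩ := exists_simple_of_len P f (h.2 i hi) (by omega)
        exact ⟨k, hk, by rw [← e']; group⟩
      refine ⟨fun i hi => ?_, fun k hk' => ?_, fun k hk' => Finset.mem_filter.2 ⟨Finset.mem_univ _, h.1 k hk'⟩⟩
      · obtain ⟨k, hkK, e⟩ := hk i hi
        exact ⟨k, e, h.1 k hkK⟩
      · obtain ⟨-, i, hi, e⟩ := Finset.mem_filter.1 hk'
        obtain ⟨k', hk'', e'⟩ := hk i hi
        have := hf (σ_injective P (mul_left_cancel (e.symm.trans e')))
        exact this ▸ hk''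
    · rintro ⟨hT, h1, h2⟩
      refine ⟨fun k hk => (Finset.mem_filter.1 (h2 hk)).2, fun i hi => ?_⟩
      obtain ⟨k, e, -⟩ := hT i hi
      rw [mul_assoc, e, inv_mul_cancel_left]
      exact σ_mem_wK P f (h1 (Finset.mem_filter.2 ⟨Finset.mem_univ _, i, hi, e⟩))
  have hKA : ∀ m, T m → Km m ⊆ Am m := by
    intro m hT k hk
    obtain ⟨-, i, hi, e⟩ := Finset.mem_filter.1 hk
    obtain ⟨k', e', hk'⟩ := hT i hi
    refine Finset.mem_filter.2 ⟨Finset.mem_univ _, ?_⟩
    rwa [hf (σ_injective P (mul_left_cancel (e.symm.trans e')))]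
  -- the exceptional type
  set m₀ := wJ * w₀
  have hlJ : ∀ i ∈ J, len P (σ P (f i) * wJ) < len P wJ := fun i hi => by
    rw [← len_inv P (σ P (f i) * wJ), mul_inv_rev, σ_inv, w0_inv]
    exact w0_desc P f J hi
  have hτ : ∀ k, ∃ k', w₀ * σ P (f k) * w₀ = σ P (f k') := by
    intro k
    have h1 := w0_conj_len P f htop (w₀ * σ P (f k))
    have h2 := w0_conj_len P f htop (σ P (f k))
    rw [← len_inv P (w₀ * σ P (f k)), mul_inv_rev, σ_inv, w0_inv] at h1
    rw [len_σ] at h2
    obtain ⟨k', -, e⟩ := exists_simple_of_len P f (wK_univ P f htop (w₀ * σ P (f k) * w₀))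
      (by simp only [w₀] at h1 h2 ⊢; omega)
    exact ⟨k', e⟩
  have hasc : ∀ k k', w₀ * σ P (f k) * w₀ = σ P (f k') → (¬ IsDesc P f m₀ k ↔ k' ∈ J) := by
    intro k k' e
    have e1 : m₀ * σ P (f k) = wJ * σ P (f k') * w₀ := by
      rw [← e]
      have : w₀ * w₀ = 1 := w0_sq P f _
      simp only [m₀, mul_assoc, this, mul_one]
    have h1 := w0_conj_len P f htop (wJ * σ P (f k'))
    have h2 := w0_conj_len P f htop wJ
    rw [IsDesc, e1]
    constructor
    · intro h
      refine mem_of_desc_w0 P f hf ?_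
      show len P (wJ * σ P (f k')) < len P wJ
      have := len_mul_σ_ne P (f k') wJ
      show len P (wJ * σ P (f k')) < len P wJ
      simp only [w₀, wJ, m₀] at h h1 h2 this ⊢
      omega
    · intro hk' h
      have := w0_desc P f J hk'
      unfold IsDesc at this
      simp only [w₀, wJ, m₀] at h h1 h2 this ⊢
      omega
  have hT₀ : T m₀ := by
    intro i hi
    have hu : wJ * σ P (f i) * wJ ∈ wK P f J :=
      mul_mem (mul_mem (w0_mem P f J) (σ_mem_wK P f hi)) (w0_mem P f J)
    have hlen := len_of_all_descents P (f '' (J : Set ι)) (w := wJ)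
      (fun s ⟨j, hj, e⟩ => e ▸ w0_desc P f J hj) (v := wJ * σ P (f i))
      (mul_mem (w0_mem P f J) (σ_mem_wK P f hi))
    rw [mul_inv_rev, σ_inv, w0_inv, ← mul_assoc] at hlen
    have h3 := len_mul_σ P (f i) wJ
    have h4 := w0_desc P f J hi
    unfold IsDesc at h4
    obtain ⟨j, hj, e⟩ := exists_simple_of_len P f hu (by simp only [wJ] at hlen h3 h4 ⊢; omega)
    obtain ⟨k, hk⟩ := hτ j
    have hk2 : w₀ * σ P (f k) * w₀ = σ P (f j) := by
      have : w₀ * w₀ = 1 := w0_sq P f _
      rw [← hk]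
      simp only [mul_assoc, this, mul_one]
      rw [← mul_assoc, this, one_mul]
    refine ⟨k, ?_, (hasc k j hk2).2 hj⟩
    have hJ2 : wJ * wJ = 1 := w0_sq P f _
    have h02 : w₀ * w₀ = 1 := w0_sq P f _
    rw [show m₀ * σ P (f k) = wJ * (w₀ * σ P (f k) * w₀) * w₀ by
      simp only [m₀, mul_assoc, h02, mul_one], hk2, ← e]
    simp only [m₀, ← mul_assoc, hJ2, one_mul]
  have h₀eq : Km m₀ = Am m₀ := by
    refine (hKA m₀ hT₀).antisymm fun k hk => ?_
    obtain ⟨k', hk'⟩ := hτ k
    have hj := (hasc k k' hk').1 (Finset.mem_filter.1 hk).2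
    have hu : wJ * σ P (f k') * wJ ∈ wK P f J :=
      mul_mem (mul_mem (w0_mem P f J) (σ_mem_wK P f hj)) (w0_mem P f J)
    have hlen := len_of_all_descents P (f '' (J : Set ι)) (w := wJ)
      (fun s ⟨j, hj, e⟩ => e ▸ w0_desc P f J hj) (v := wJ * σ P (f k'))
      (mul_mem (w0_mem P f J) (σ_mem_wK P f hj))
    rw [mul_inv_rev, σ_inv, w0_inv, ← mul_assoc] at hlen
    have h3 := len_mul_σ P (f k') wJ
    have h4 := w0_desc P f J hj
    unfold IsDesc at h4
    obtain ⟨i, hi, e⟩ := exists_simple_of_len P f hu (by simp only [wJ] at hlen h3 h4 ⊢; omega)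
    refine Finset.mem_filter.2 ⟨Finset.mem_univ _, i, hi, ?_⟩
    have hJ2 : wJ * wJ = 1 := w0_sq P f _
    have h02 : w₀ * w₀ = 1 := w0_sq P f _
    rw [show m₀ * σ P (f k) = wJ * (w₀ * σ P (f k) * w₀) * w₀ by
      simp only [m₀, mul_assoc, h02, mul_one], hk', ← e]
    simp only [m₀, mul_assoc]
    rw [← mul_assoc wJ wJ, hJ2, one_mul]
  have huniq : ∀ m, T m → Km m = Am m → m = m₀ := by
    intro m hT hm
    set wK' := w0 P f (Km m)
    have hlm : ∀ i ∈ J, ¬ IsDesc P f m⁻¹ i := lmin_of_stable P f ((hiff (Km m) m).2 ⟨hT, subset_rfl, hKA m hT⟩)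
    have hrm : ∀ k ∈ Km m, ¬ IsDesc P f m k := fun k hk => (Finset.mem_filter.1 (hKA m hT hk)).2
    let C : Subgroup (W P) := (wK P f J).comap (MulAut.conj m).toMonoidHom
    have hC : wK P f (Km m) ≤ C := by
      rw [wK, wPar, Subgroup.closure_le]
      rintro _ ⟨_, ⟨k, hk, rfl⟩, rfl⟩
      obtain ⟨-, i, hi, e⟩ := Finset.mem_filter.1 hk
      show m * σ P (f k) * m⁻¹ ∈ wK P f J
      rw [← e, mul_inv_cancel_right]
      exact σ_mem_wK P f hi
    set u := m * wK' * m⁻¹ with hudef
    have hu : u ∈ wK P f J := hC (w0_mem P f (Km m))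
    have hum : len P (u * m) = len P u + len P m := len_add_left P f hlm hu
    rw [show u * m = m * wK' by rw [hudef]; group,
      len_add_right P f hrm (w0_mem P f (Km m))] at hum
    have huw : u = wJ := by
      refine eq_w0 P f J hu fun i hi => ?_
      obtain ⟨k, e, hk⟩ := hT i hi
      have hkm : k ∈ Km m := Finset.mem_filter.2 ⟨Finset.mem_univ _, i, hi, e⟩
      have h1 : len P (u * σ P (f i) * m) = len P (u * σ P (f i)) + len P m :=
        len_add_left P f hlm (mul_mem hu (σ_mem_wK P f hi))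
      rw [show u * σ P (f i) * m = m * (wK' * σ P (f k)) by rw [mul_assoc u, e, hudef]; group,
        len_add_right P f hrm (mul_mem (w0_mem P f (Km m)) (σ_mem_wK P f hkm))] at h1
      have h2 := w0_desc P f (Km m) hkm
      unfold IsDesc at h2 ⊢
      omega
    have hx : wJ * m = w₀ := by
      refine eq_w0 P f _ (wK_univ P f htop _) fun k _ => ?_
      have hxm : wJ * m = m * wK' := by rw [← huw, hudef]; group
      by_cases hk : k ∈ Km m
      · have h2 := w0_desc P f (Km m) hk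
        unfold IsDesc at h2 ⊢
        rw [hxm, mul_assoc, len_add_right P f hrm (mul_mem (w0_mem P f (Km m)) (σ_mem_wK P f hk)),
          len_add_right P f hrm (w0_mem P f (Km m))]
        omega
      · have h1 : IsDesc P f m k := by
          by_contra h
          exact hk (hm ▸ Finset.mem_filter.2 ⟨Finset.mem_univ _, h⟩)
        unfold IsDesc at h1 ⊢
        rw [len_add_left P f hlm (w0_mem P f J), mul_assoc]
        exact lt_of_le_of_lt (len_mul_le P _ _) (by simp only [wJ]; omega)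
    rw [show m = wJ⁻¹ * (wJ * m) by group, hx, w0_inv]
  have hfix : ∀ m, (∑ K ∈ (Finset.univ : Finset ι).powerset,
      (-1 : ℤ) ^ K.card * if Stable P f J K m then 1 else 0) =
      if m = m₀ then (-1 : ℤ) ^ (Km m₀).card else 0 := by
    intro m
    simp only [mul_ite, mul_one, mul_zero]
    rw [← Finset.sum_filter]
    by_cases hT : T m
    · have hs : (Finset.univ : Finset ι).powerset.filter (fun K => Stable P f J K m) =
          (Am m \ Km m).powerset.image fun L => Km m ∪ L := by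
        ext K
        simp only [Finset.mem_filter, Finset.mem_powerset, Finset.subset_univ, true_and, hiff,
          Finset.mem_image]
        constructor
        · rintro ⟨-, h1, h2⟩
          exact ⟨K \ Km m, Finset.sdiff_subset_sdiff h2 subset_rfl, Finset.union_sdiff_of_subset h1⟩
        · rintro ⟨L, hL, rfl⟩
          exact ⟨hT, Finset.subset_union_left,
            Finset.union_subset (hKA m hT) (hL.trans Finset.sdiff_subset)⟩
      have hd : ∀ L ∈ (Am m \ Km m).powerset, Disjoint (Km m) L := fun L hL =>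
        Finset.disjoint_sdiff.mono_right (Finset.mem_powerset.1 hL)
      rw [hs, Finset.sum_image fun L hL L' hL' e => by
        have h1 := congrArg (fun Z => Z \ Km m) e
        simp only [Finset.union_sdiff_left] at h1
        rwa [(Finset.sdiff_eq_self_of_disjoint (hd L hL).symm),
          (Finset.sdiff_eq_self_of_disjoint (hd L' hL').symm)] at h1,
        Finset.sum_congr rfl fun L hL => by rw [Finset.card_union_of_disjoint (hd L hL), pow_add],
        ← Finset.mul_sum, Finset.sum_powerset_neg_one_pow_card, mul_ite, mul_one, mul_zero]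
      by_cases hm : m = m₀
      · subst hm
        rw [if_pos rfl, if_pos]
        rw [h₀eq, Finset.sdiff_self]
      · rw [if_neg hm, if_neg]
        exact fun h => hm (huniq m hT ((hKA m hT).antisymm (Finset.sdiff_eq_empty_iff_subset.1 h)))
    · rw [if_neg (fun h : m = m₀ => hT (h.symm ▸ hT₀)), Finset.sum_eq_zero]
      intro K hK
      exact absurd ((hiff K m).1 (Finset.mem_filter.1 hK).2).1 hT
  refine ⟨(-1) ^ (Km m₀).card, neg_one_pow_eq_or ℤ _, ?_⟩
  have hc : ∀ K : Finset ι, (Nat.card {m : W P // Stable P f J K m} : ℤ) =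
      ∑ m : W P, if Stable P f J K m then 1 else 0 := fun K => by
    rw [Finset.sum_boole, Nat.card_eq_fintype_card, Fintype.card_subtype]
  simp only [hc, Finset.mul_sum]
  rw [Finset.sum_comm, Finset.sum_congr rfl fun m _ => hfix m, Finset.sum_ite_eq',
    if_pos (Finset.mem_univ _)]

/-- The mean of the alternating sum over the coset of the radical. -/
theorem sum_alt_coset (htop : par P f Finset.univ = ⊤) (hf : Function.Injective f) (J : Finset ι)
    (R : Subgroup G) [Fintype R] (hRB : R ≤ P.B) (hRn : ∀ t ∈ par P f J, ∀ r ∈ R, t * r * t⁻¹ ∈ R)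
    (hsplit : ∀ (n : G) (hn : n ∈ P.N), (∀ i ∈ J, ¬ IsDesc P f (mk P n hn)⁻¹ i) →
      ∀ b ∈ P.B, ∃ r ∈ R, n⁻¹ * (r⁻¹ * b) * n ∈ P.B)
    (g : G) (hg : g ∈ par P f J) (hell : ∀ J', J' ⊂ J → ∀ t ∈ par P f J, t * g * t⁻¹ ∉ par P f J') :
    ∃ ε : ℤ, (ε = 1 ∨ ε = -1) ∧
      ∑ r : R, alt P f Finset.univ (g * (r : G)) = ε * Nat.card R := by
  obtain ⟨ε, hε, hs⟩ := sum_stable P f htop hf J
  refine ⟨ε, hε, ?_⟩
  rw [← hs, Finset.sum_mul]
  simp only [alt]
  rw [Finset.sum_comm]
  refine Finset.sum_congr rfl fun K _ => ?_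
  simp only [fixIn_top P f htop]
  rw [← Finset.mul_sum, ← Nat.cast_sum, sum_fixedBy_coset R g (fun r hr => by
      have := hRn g⁻¹ (inv_mem hg) r hr
      rwa [inv_inv] at this), Nat.cast_mul, mul_assoc]
  congr 2
  exact_mod_cast card_fixed_orbits P f htop J K R hRB hRn hsplit g hg hell

end CfsgLib.BNSteinberg
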