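import Cfsg.Agent.BNPair.Parabolic

/-!
# Minimal and maximal coset representatives in the Weyl group of a BN-pair

Right exchange, additivity of lengths from a minimal representative, uniqueness of the longest
element of a parabolic subgroup, and products of cells.
-/

set_option autoImplicit false

namespace CfsgLib.BNSteinberg

open CfsgLib.BNPair

variable {G : Type*} [Group G] (P : Cfsg.BNPair G)

theorem exchange_right (s : P.S) (L : List P.S)
    (h : len P (wd P L * σ P s) ≤ len P (wd P L)) :
    ∃ A r B, L = A ++ r :: B ∧ wd P L * σ P s = wd P (A ++ B) := by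
  have h' : len P (σ P s * wd P L.reverse) ≤ len P (wd P L.reverse) := by
    rw [wd_reverse, len_inv, ← σ_inv, ← mul_inv_rev, len_inv]
    exact h
  obtain ⟨i, hi, e⟩ := exchange P s L.reverse h'
  refine ⟨(L.reverse.drop (i + 1)).reverse, L.reverse[i], (L.reverse.take i).reverse, ?_, ?_⟩
  · conv_lhs => rw [← List.reverse_reverse L, ← List.take_append_drop i L.reverse,
      List.drop_eq_getElem_cons hi]
    simp [List.reverse_append, List.append_assoc]
  · rw [← List.reverse_append, wd_reverse, ← List.eraseIdx_eq_take_drop_succ, ← e, wd_reverse,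
      mul_inv_rev, inv_inv, σ_inv]

theorem len_mul_σ_ne (s : P.S) (w : W P) : len P (w * σ P s) ≠ len P w := by
  rw [← len_inv P (w * σ P s), ← len_inv P w, mul_inv_rev, σ_inv]
  exact len_σ_mul_ne P s w⁻¹

theorem len_mul_σ (s : P.S) (w : W P) :
    len P (w * σ P s) = len P w + 1 ∨ len P (w * σ P s) + 1 = len P w := by
  rw [← len_inv P (w * σ P s), ← len_inv P w, mul_inv_rev, σ_inv]
  exact len_σ_mul P s w⁻¹

/-- From a shortest element of a coset `w W_J` lengths add up. -/
theorem len_mul_of_min (J : Set P.S) {m : W P}
    (hm : ∀ u ∈ wPar P J, len P m ≤ len P (m * u)) {u : W P} (hu : u ∈ wPar P J) :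
    len P (m * u) = len P m + len P u := by
  obtain ⟨L, hLJ, hlen, rfl⟩ := exists_reduced_mem P J hu
  clear hu
  induction L using List.reverseRecOn with
  | nil => simp [len_one]
  | append_singleton L s ih =>
    simp only [wd_append, wd_cons, wd_nil, mul_one, List.length_append, List.length_cons,
      List.length_nil] at hlen ⊢
    have hL' : ∀ t ∈ L, t ∈ J := fun t ht => hLJ t (List.mem_append_left _ ht)
    have hLlen : L.length = len P (wd P L) := by
      have h1 := len_wd_le P L
      have h2 := len_mul_le P (wd P L) (σ P s)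
      rw [len_σ] at h2
      omega
    have ih' := ih hL' hLlen
    rw [← mul_assoc]
    rcases len_mul_σ P s (m * wd P L) with h | h
    · omega
    exfalso
    obtain ⟨M, hM, hMm⟩ := exists_reduced P m
    obtain ⟨A, r, B, e, he⟩ := exchange_right P s (M ++ L) (by rw [wd_append, hMm]; omega)
    rw [wd_append, hMm] at he
    rcases List.append_eq_append_iff.1 e with ⟨C, hC1, hC2⟩ | ⟨C, hC1, hC2⟩
    · rw [hC1, wd_append, wd_append, hMm, mul_assoc, mul_assoc, mul_left_cancel_iff] at he
      have := len_wd_le P (C ++ B)
      rw [wd_append, ← he, ← hlen] at this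
      have hL2 := congrArg List.length hC2
      simp at this hL2
      omega
    · rcases C with _ | ⟨c, C⟩
      · simp only [List.nil_append] at hC2
        rw [← hC2] at hlen he hLlen
        rw [List.append_nil] at hC1
        rw [← hC1, wd_append, hMm, mul_assoc, mul_left_cancel_iff] at he
        have := len_wd_le P B
        rw [← he, ← hlen] at this
        simp at this
      · obtain ⟨rfl, rfl⟩ := List.cons.inj hC2
        rw [List.append_eq, wd_append, wd_append] at he
        have hmem : wd P L * σ P s * (wd P L)⁻¹ ∈ wPar P J := by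
          have h1 : wd P L ∈ wPar P J := by
            refine list_prod_mem fun x hx => ?_
            obtain ⟨t, ht, rfl⟩ := List.mem_map.1 hx
            exact σ_mem_wPar P (hL' t ht)
          exact mul_mem (mul_mem h1 (σ_mem_wPar P (hLJ s (by simp)))) (inv_mem h1)
        have e' : m * (wd P L * σ P s * (wd P L)⁻¹) = wd P (A ++ C) := by
          rw [show m * (wd P L * σ P s * (wd P L)⁻¹) = m * wd P L * σ P s * (wd P L)⁻¹ by group,
            he, wd_append]
          group
        have h1 := hm _ hmem
        rw [e'] at h1
        have h2 := len_wd_le P (A ++ C)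
        rw [← hM, hC1] at h1
        simp at h1 h2
        omega

/-- A shortest element of a coset has no descent in `J`. -/
theorem lt_of_min (J : Set P.S) {m : W P} (hm : ∀ u ∈ wPar P J, len P m ≤ len P (m * u))
    {s : P.S} (hs : s ∈ J) : len P m < len P (m * σ P s) := by
  rw [len_mul_of_min P J hm (σ_mem_wPar P hs), len_σ]
  omega

/-- An element without descents in `J` is the shortest of its coset. -/
theorem min_of_lt (J : Set P.S) {w : W P} (hw : ∀ s ∈ J, len P w < len P (w * σ P s)) :
    ∀ u ∈ wPar P J, len P w ≤ len P (w * u) := by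
  classical
  obtain ⟨m, ⟨u, hu, rfl⟩, hmin⟩ : ∃ m, (∃ u ∈ wPar P J, m = w * u) ∧
      ∀ v ∈ wPar P J, len P m ≤ len P (w * v) := by
    have hne : ∃ k, ∃ u ∈ wPar P J, len P (w * u) = k := ⟨_, 1, one_mem _, rfl⟩
    obtain ⟨u, hu, hk⟩ := Nat.find_spec hne
    exact ⟨w * u, ⟨u, hu, rfl⟩, fun v hv => hk ▸ Nat.find_min' hne ⟨v, hv, rfl⟩⟩
  have hm : ∀ v ∈ wPar P J, len P (w * u) ≤ len P (w * u * v) := fun v hv => by
    rw [mul_assoc]; exact hmin _ (mul_mem hu hv)
  obtain ⟨L, hLJ, hlen, hLu⟩ := exists_reduced_mem P J (inv_mem hu)
  suffices L = [] by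
    subst this
    rw [wd_nil, eq_comm, inv_eq_one] at hLu
    subst hLu
    simpa using hmin
  by_contra hne
  rcases List.eq_nil_or_concat' L with rfl | ⟨L', s, rfl⟩
  · exact hne rfl
  have h1 := len_mul_of_min P J hm (inv_mem hu)
  rw [mul_inv_cancel_right] at h1
  have hL' : wd P L' ∈ wPar P J := by
    refine list_prod_mem fun x hx => ?_
    obtain ⟨t, ht, rfl⟩ := List.mem_map.1 hx
    exact σ_mem_wPar P (hLJ t (List.mem_append_left _ ht))
  have h2 := len_mul_of_min P J hm hL'
  have e : w * σ P s = w * u * wd P L' := by
    rw [mul_assoc w u]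
    congr 1
    simp only [wd_append, wd_cons, wd_nil, mul_one] at hLu
    rw [← inv_inv u, ← hLu, mul_inv_rev, σ_inv]
    group
  have h3 := hw s (hLJ s (by simp))
  have h4 := len_wd_le P L'
  rw [e] at h3
  simp only [List.length_append, List.length_cons, List.length_nil] at hlen
  omega

/-- An element of `W_J` with all descents in `J` is longer than any other by a complement. -/
theorem len_of_all_descents (J : Set P.S) {w : W P}
    (hd : ∀ s ∈ J, len P (w * σ P s) < len P w) {v : W P} (hv : v ∈ wPar P J) :
    len P (w * v⁻¹) + len P v = len P w := by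
  obtain ⟨V, hVJ, hlen, rfl⟩ := exists_reduced_mem P J hv
  clear hv
  induction V using List.reverseRecOn with
  | nil => simp [len_one]
  | append_singleton V t ih =>
    simp only [wd_append, wd_cons, wd_nil, mul_one, List.length_append, List.length_cons,
      List.length_nil] at hlen ⊢
    have hVlen : V.length = len P (wd P V) := by
      have h1 := len_wd_le P V
      have h2 := len_mul_le P (wd P V) (σ P t)
      rw [len_σ] at h2
      omega
    have ih' := ih (fun s hs => hVJ s (List.mem_append_left _ hs)) hVlen
    have ht := hd t (hVJ t (by simp))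
    obtain ⟨M, hM, hMm⟩ := exists_reduced P (w * (wd P V)⁻¹)
    have hw : wd P (M ++ V) = w := by rw [wd_append, hMm, inv_mul_cancel_right]
    obtain ⟨A, r, B, e, he⟩ := exchange_right P t (M ++ V) (by rw [hw]; omega)
    have htri : len P w ≤ len P (w * (wd P V * σ P t)⁻¹) + len P (wd P V * σ P t) := by
      have := len_mul_le P (w * (wd P V * σ P t)⁻¹) (wd P V * σ P t)
      rwa [inv_mul_cancel_right] at this
    rcases List.append_eq_append_iff.1 e with ⟨C, hC1, hC2⟩ | ⟨C, hC1, hC2⟩
    · exfalso
      simp only [hC1, wd_append, mul_assoc, mul_left_cancel_iff] at he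
      have := len_wd_le P (C ++ B)
      rw [wd_append, ← he, ← hlen] at this
      have hL2 := congrArg List.length hC2
      simp at this hL2
      omega
    · rcases C with _ | ⟨c, C⟩
      · exfalso
        simp only [List.nil_append] at hC2
        rw [List.append_nil] at hC1
        rw [hC1, wd_append, wd_append, mul_assoc, mul_left_cancel_iff] at he
        have := len_wd_le P B
        rw [← he, ← hlen] at this
        have hL2 := congrArg List.length hC2
        simp at this hL2
        omega
      · obtain ⟨rfl, rfl⟩ := List.cons.inj hC2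
        have e' : w * (wd P V * σ P t)⁻¹ = wd P (A ++ C) := by
          rw [mul_inv_rev, σ_inv, ← mul_assoc]
          nth_rewrite 1 [← hw]
          rw [he, List.append_eq, wd_append, wd_append, wd_append]
          group
        have h2 := len_wd_le P (A ++ C)
        rw [← e'] at h2
        rw [hC1] at hM
        simp only [List.length_append, List.length_cons] at hM h2
        omega

/-- Cells multiply along length-additive products. -/
theorem cell_mul_of_len {u v : W P} (h : len P (u * v) = len P u + len P v) {g g' : G}
    (hg : g ∈ cell P u) (hg' : g' ∈ cell P v) : g * g' ∈ cell P (u * v) := by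
  obtain ⟨L, hL, rfl⟩ := exists_reduced P u
  induction L generalizing g with
  | nil => simpa using B_mul_mem_cell P ((mem_cell_one P).1 (by simpa using hg)) hg'
  | cons s L ih =>
    rw [wd_cons] at h hg hL ⊢
    have hLlen : L.length = len P (wd P L) := head_reduces P (by rw [wd_cons]; exact hL)
    simp only [List.length_cons] at hL
    obtain ⟨x, hx, y, hy, rfl⟩ := exists_mul_of_mem_cell_mul P hg
    have h1 := len_mul_le P (wd P L) v
    have h2 := len_σ_mul_le P s (wd P L * v)
    rw [← mul_assoc] at h2
    rw [mul_assoc (σ P s), mul_assoc x]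
    exact σ_mul_cell_of_le P s (by rw [← mul_assoc]; omega) hx (ih (by omega) hy hLlen)

/-- A cell of `W_I` times a cell lands in the cells of a left coset of `W_I`. -/
theorem cell_mul_subset (I : Set P.S) {u v : W P} (hu : u ∈ wPar P I) {g g' : G}
    (hg : g ∈ cell P u) (hg' : g' ∈ cell P v) :
    ∃ a ∈ wPar P I, g * g' ∈ cell P (a * v) := by
  obtain ⟨L, hLI, -, rfl⟩ := exists_reduced_mem P I hu
  clear hu
  induction L generalizing g with
  | nil =>
    exact ⟨1, one_mem _, by simpa using B_mul_mem_cell P ((mem_cell_one P).1 (by simpa using hg)) hg'⟩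
  | cons s L ih =>
    rw [wd_cons] at hg
    obtain ⟨x, hx, y, hy, rfl⟩ := exists_mul_of_mem_cell_mul P hg
    obtain ⟨a, ha, hya⟩ := ih (fun t ht => hLI t (List.mem_cons_of_mem _ ht)) hy
    rw [mul_assoc x]
    rcases σ_mul_cell P s hx hya with h | h
    · exact ⟨σ P s * a, mul_mem (σ_mem_wPar P (hLI s List.mem_cons_self)) ha, by rwa [mul_assoc]⟩
    · exact ⟨a, ha, h⟩

end CfsgLib.BNSteinberg
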