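import Cfsg.Agent.BNSteinberg.Orbits
import Cfsg.Agent.CharBasics.Induced
import Cfsg.Agent.IndFun.Basic

/-!
# The alternating sum is an irreducible character

A character which has mean `1` on `B`, mean `0` on the larger parabolic subgroups and the degree of
the alternating sum is equal to it and irreducible.
-/

set_option autoImplicit false

namespace CfsgLib.BNSteinberg

open CfsgLib.BNPair CfsgLib.CharBasics
open scoped ComplexConjugate

theorem numIn_top_mul {G : Type*} [Group G] (P : Cfsg.BNPair G) {ι : Type*} [Fintype ι]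
    (f : ι → P.S) [Finite G] (htop : par P f Finset.univ = ⊤) (K : Finset ι) :
    numIn P f Finset.univ K * Nat.card (par P f K) = Nat.card G := by
  rw [Subgroup.card_eq_card_quotient_mul_card_subgroup (par P f K), numIn]
  congr 1
  exact Nat.card_congr (Equiv.subtypeUnivEquiv fun y => by
    obtain ⟨g, hg⟩ := QuotientGroup.mk_surjective y
    exact ⟨g, by rw [htop]; trivial, hg.symm⟩)

theorem par_empty {G : Type*} [Group G] (P : Cfsg.BNPair G) {ι : Type*} (f : ι → P.S) :
    par P f ∅ = P.B := by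
  simp [par, Cfsg.BNPair.parabolic]

theorem isCharacter_fixedBy {G : Type*} [Group G] [Finite G] (H : Subgroup G) :
    Cfsg.IsCharacter G (fun g => (Nat.card (MulAction.fixedBy (G ⧸ H) g) : ℂ)) := by
  classical
  haveI := Fintype.ofFinite G
  have e : (fun g => (Nat.card (MulAction.fixedBy (G ⧸ H) g) : ℂ)) =
      Cfsg.indFun H (fun _ => (1 : ℂ)) :=
    funext fun g => (CfsgLib.IndFun.indFun_const_one_eq_card_fixedBy H g).symm
  rw [e]
  exact isCharacter_indFun H (isCharacter_of_irr isIrrCharacter_one)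

/-- Irreducibility of the alternating sum, and its identification with a given character. -/
theorem alt_irr_and_eq {G : Type*} [Group G] [Fintype G] (P : Cfsg.BNPair G) {ι : Type*}
    [Fintype ι] [DecidableEq ι] (f : ι → P.S) [Finite (W P)] (htop : par P f Finset.univ = ⊤)
    (X : G → ℤ) (hX : Cfsg.IsCharacter G fun g => (X g : ℂ))
    (hdeg : X 1 = alt P f Finset.univ 1)
    (hsum : ∀ (K : Finset ι) [DecidablePred (· ∈ par P f K)],
      ∑ g with g ∈ par P f K, X g = if K = ∅ then (Nat.card (par P f K) : ℤ) else 0) :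
    Cfsg.IsIrrCharacter G (fun g => (alt P f Finset.univ g : ℂ)) ∧
      ∀ g, alt P f Finset.univ g = X g := by
  classical
  set St : G → ℂ := fun g => (alt P f Finset.univ g : ℂ) with hSt
  set χ : G → ℂ := fun g => (X g : ℂ) with hχdef
  let π : Finset ι → G → ℂ := fun K g => (Nat.card (MulAction.fixedBy (G ⧸ par P f K) g) : ℂ)
  have hG : (Nat.card G : ℂ) ≠ 0 := Nat.cast_ne_zero.2 Nat.card_pos.ne'
  have hdec : St = ∑ K ∈ (Finset.univ : Finset ι).powerset, ((-1 : ℂ) ^ K.card) • π K := by
    funext g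
    simp only [hSt, alt, fixIn_top P f htop, Finset.sum_apply, Pi.smul_apply, smul_eq_mul, π]
    push_cast
    rfl
  -- inner products with the permutation characters
  have hinner : ∀ (φ : G → ℤ), (∀ t g, φ (t * g * t⁻¹) = φ g) → (∀ K : Finset ι,
      ∑ g with g ∈ par P f K, φ g = if K = ∅ then (Nat.card (par P f K) : ℤ) else 0) →
      Cfsg.classInner St (fun g => (φ g : ℂ)) = 1 := by
    intro φ hφ hs
    rw [hdec, classInner_sum_left, Finset.sum_eq_single ∅]
    · rw [classInner_smul_left, Finset.card_empty, pow_zero, one_mul, classInner_eq,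
        inv_mul_eq_one₀ hG]
      have h := sum_fixIn_mul P f (Finset.empty_subset Finset.univ) φ hφ
      rw [hs, if_pos rfl, ← Nat.cast_mul, numIn_top_mul P f htop] at h
      simp only [htop, Subgroup.mem_top, Finset.filter_true, fixIn_top P f htop] at h
      have hc := congrArg (fun z : ℤ => (z : ℂ)) h
      push_cast at hc
      simp only [π, map_intCast]
      exact hc.symm
    · intro K _ hK
      rw [classInner_smul_left, mul_eq_zero]
      right
      rw [classInner_eq, mul_eq_zero]
      right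
      have h := sum_fixIn_mul P f (Finset.subset_univ K) φ hφ
      rw [hs, if_neg hK, mul_zero] at h
      simp only [htop, Subgroup.mem_top, Finset.filter_true, fixIn_top P f htop] at h
      have hc := congrArg (fun z : ℤ => (z : ℂ)) h
      push_cast at hc
      simp only [π, map_intCast]
      exact hc
    · simp
  have hSS : Cfsg.classInner St St = 1 :=
    hinner _ (fun t g => alt_conj P f (I := Finset.univ) (by rw [htop]; trivial) g)
      (fun K => sum_alt_par P f htop K)
  have hclass : ∀ t g, X (t * g * t⁻¹) = X g := fun t g =>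
    Int.cast_injective (α := ℂ) (isClassFunction hX g t)
  have hSχ : Cfsg.classInner St χ = 1 := hinner _ hclass fun K => hsum K
  -- inner products with irreducible characters are integers
  have hint : ∀ φ : G → ℂ, Cfsg.IsCharacter G φ → ∃ k : ℤ, Cfsg.classInner St φ = k := by
    intro φ hφ
    choose m hm using fun K : Finset ι => classInner_characters_nat
      (isCharacter_fixedBy (par P f K)) hφ
    refine ⟨∑ K ∈ (Finset.univ : Finset ι).powerset, (-1) ^ K.card * (m K : ℤ), ?_⟩
    rw [hdec, classInner_sum_left, Int.cast_sum]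
    refine Finset.sum_congr rfl fun K _ => ?_
    rw [classInner_smul_left, hm K]
    push_cast
    rfl
  obtain ⟨r, ψ, hψ, hψs⟩ := exists_decomp hX
  have hψs' : χ = ∑ i, ψ i := hψs
  obtain ⟨i, hi⟩ : ∃ i, Cfsg.classInner St (ψ i) ≠ 0 := by
    by_contra hcon
    push Not at hcon
    rw [hψs', classInner_sum_right] at hSχ
    simp [hcon] at hSχ
  obtain ⟨k, hk⟩ := hint _ (isCharacter_of_irr (hψ i))
  have hk0 : k ≠ 0 := fun h => hi (by rw [hk, h, Int.cast_zero])
  have hφφ := classInner_self (hψ i)
  have hφS : Cfsg.classInner (ψ i) St = k := by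
    rw [classInner_comm St (ψ i), hk, map_intCast]
  have hΔ : Cfsg.classInner (St + (-(k : ℂ)) • ψ i) (St + (-(k : ℂ)) • ψ i) = 1 - (k : ℂ) ^ 2 := by
    rw [classInner_add_left, classInner_smul_left,
      classInner_comm (St + (-(k : ℂ)) • ψ i) St, classInner_comm (St + (-(k : ℂ)) • ψ i) (ψ i),
      classInner_add_left, classInner_add_left, classInner_smul_left, classInner_smul_left,
      hSS, hk, hφS, hφφ]
    simp only [map_add, map_one, map_mul, map_neg, map_intCast]
    ring
  set Δ : G → ℂ := St + (-(k : ℂ)) • ψ i with hΔdef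
  have hΔR : ((∑ g, ‖Δ g‖ ^ 2 : ℝ) : ℂ) = (Nat.card G : ℂ) * (1 - (k : ℂ) ^ 2) := by
    rw [← hΔ, classInner_eq, ← mul_assoc, mul_inv_cancel₀ hG, one_mul]
    push_cast
    exact Finset.sum_congr rfl fun g _ => (Complex.mul_conj' _).symm
  have hΔR' : (∑ g, ‖Δ g‖ ^ 2 : ℝ) = (Nat.card G : ℝ) * (1 - (k : ℝ) ^ 2) := by
    have := congrArg Complex.re hΔR
    rw [Complex.ofReal_re] at this
    rw [this, show (Nat.card G : ℂ) * (1 - (k : ℂ) ^ 2) =
      (((Nat.card G : ℝ) * (1 - (k : ℝ) ^ 2) : ℝ) : ℂ) by push_cast; ring, Complex.ofReal_re]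
  have hk2 : k ^ 2 = 1 := by
    have h0 : 0 ≤ (Nat.card G : ℝ) * (1 - (k : ℝ) ^ 2) :=
      hΔR' ▸ Finset.sum_nonneg fun g _ => sq_nonneg _
    have h1 : (0 : ℝ) ≤ 1 - (k : ℝ) ^ 2 :=
      nonneg_of_mul_nonneg_right h0 (by exact_mod_cast Nat.card_pos (α := G))
    have h2 : k ^ 2 ≤ 1 := by
      have : ((k ^ 2 : ℤ) : ℝ) ≤ ((1 : ℤ) : ℝ) := by push_cast; linarith
      exact_mod_cast this
    have := mul_self_pos.2 hk0
    rw [sq] at h2 ⊢
    omega
  have hSk : St = (k : ℂ) • ψ i := by
    have hz : (∑ g, ‖Δ g‖ ^ 2 : ℝ) = 0 := by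
      rw [hΔR', show ((k : ℝ) ^ 2) = 1 by exact_mod_cast hk2]; ring
    funext g
    have := (Finset.sum_eq_zero_iff_of_nonneg fun g _ => sq_nonneg ‖Δ g‖).1 hz g (Finset.mem_univ _)
    rw [sq_eq_zero_iff, norm_eq_zero] at this
    simp only [hΔdef, Pi.add_apply, Pi.smul_apply, smul_eq_mul] at this ⊢
    linear_combination this
  -- the sign is `+`
  have hk1 : k = 1 := by
    obtain ⟨m, hm⟩ := classInner_characters_nat (isCharacter_of_irr (hψ i)) hX
    rw [hSk, classInner_smul_left, hm] at hSχ
    have : k * (m : ℤ) = 1 := by exact_mod_cast hSχ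
    rcases Int.eq_one_or_neg_one_of_mul_eq_one this with h | h
    · exact h
    · subst h; omega
  rw [hk1, Int.cast_one, one_smul] at hSk
  refine ⟨hSk ▸ hψ i, fun g => ?_⟩
  have h1 : ψ i 1 = χ 1 := by
    rw [← hSk]
    show ((alt P f Finset.univ 1 : ℤ) : ℂ) = (X 1 : ℂ)
    rw [hdeg]
  have hall : ∀ j, j = i := by
    intro j
    by_contra hne
    rw [hψs', Finset.sum_apply, ← Finset.add_sum_erase _ _ (Finset.mem_univ i),
      left_eq_add] at h1
    have h2 : ((∑ j ∈ Finset.univ.erase i, Cfsg.charDegree (ψ j) : ℕ) : ℂ) = 0 := by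
      rw [Nat.cast_sum, ← h1]
      exact Finset.sum_congr rfl fun j _ => (apply_one (isCharacter_of_irr (hψ j))).symm
    have h3 := (Finset.sum_eq_zero_iff).1 (Nat.cast_eq_zero.1 h2) j
      (Finset.mem_erase.2 ⟨hne, Finset.mem_univ _⟩)
    exact (charDegree_pos (hψ j)).ne' h3
  have e : χ = St := by
    rw [hψs', hSk, Finset.sum_eq_single i (fun j _ hj => absurd (hall j) hj) (by simp)]
  exact Int.cast_injective (α := ℂ) (congrFun e g).symm

end CfsgLib.BNSteinberg
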