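import Cfsg.Agent.BNSteinberg.Counting

/-!
# Orbits of parabolic subgroups on parabolic coset spaces and the mean of the alternating sum

`P_I` has as many orbits on `G / P_K` as `W` has elements without descent in `I` on the left and in
`K` on the right; consequently the alternating sum has mean `0` over `P_I` unless `I = ∅`.
-/

set_option autoImplicit false

namespace CfsgLib.BNSteinberg

open CfsgLib.BNPair

variable {G : Type*} [Group G] (P : Cfsg.BNPair G) {ι : Type*} (f : ι → P.S)

/-- No descent in `I` on the left, none in `K` on the right. -/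
def DMin (I K : Finset ι) (w : W P) : Prop :=
  (∀ i ∈ I, ¬ IsDesc P f w⁻¹ i) ∧ ∀ i ∈ K, ¬ IsDesc P f w i

theorem len_add_left {I : Finset ι} {w : W P} (h : ∀ i ∈ I, ¬ IsDesc P f w⁻¹ i) {a : W P}
    (ha : a ∈ wK P f I) : len P (a * w) = len P a + len P w := by
  rw [← len_inv P (a * w), mul_inv_rev,
    len_mul_of_min P _ (min_of_no_desc P f h) (inv_mem ha), len_inv, len_inv, add_comm]

theorem len_add_right {K : Finset ι} {w : W P} (h : ∀ i ∈ K, ¬ IsDesc P f w i) {b : W P}
    (hb : b ∈ wK P f K) : len P (w * b) = len P w + len P b :=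
  len_mul_of_min P _ (min_of_no_desc P f h) hb

/-- A shortest element of a double coset, in the form used below. -/
theorem exists_double_min (I K : Finset ι) (w : W P) :
    ∃ a ∈ wK P f I, ∃ b ∈ wK P f K, ∃ m, w = a * m * b ∧ DMin P f I K m ∧
      ∀ x ∈ wK P f I, ∀ y ∈ wK P f K, len P m ≤ len P (x * m * y) := by
  classical
  have hne : ∃ k, ∃ x ∈ wK P f I, ∃ y ∈ wK P f K, len P (x * w * y) = k :=
    ⟨_, 1, one_mem _, 1, one_mem _, rfl⟩
  obtain ⟨x, hx, y, hy, hk⟩ := Nat.find_spec hne
  have hmin : ∀ x' ∈ wK P f I, ∀ y' ∈ wK P f K, len P (x * w * y) ≤ len P (x' * (x * w * y) * y') :=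
    fun x' hx' y' hy' => hk ▸ Nat.find_min' hne
      ⟨x' * x, mul_mem hx' hx, y * y', mul_mem hy hy', by simp only [mul_assoc]⟩
  refine ⟨x⁻¹, inv_mem hx, y⁻¹, inv_mem hy, x * w * y, by group, ⟨fun i hi hd => ?_, fun i hi hd => ?_⟩,
    hmin⟩
  · have h := hmin _ (σ_mem_wK P f hi) 1 (one_mem _)
    rw [mul_one, ← len_inv P (σ P (f i) * _), mul_inv_rev, σ_inv, ← len_inv P (x * w * y)] at h
    unfold IsDesc at hd
    omega
  · have h := hmin 1 (one_mem _) _ (σ_mem_wK P f hi)
    rw [one_mul] at h
    unfold IsDesc at hd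
    omega

theorem dmin_unique {I K : Finset ι} {m w : W P} (hm : DMin P f I K m)
    (hmin : ∀ x ∈ wK P f I, ∀ y ∈ wK P f K, len P m ≤ len P (x * m * y))
    (hw : DMin P f I K w) {a b : W P} (ha : a ∈ wK P f I) (hb : b ∈ wK P f K)
    (e : w = a * m * b⁻¹) : w = m := by
  induction hn : len P a using Nat.strong_induction_on generalizing a b with
  | _ k ih =>
    subst hn
    have e1 : a * m = w * b := by rw [e]; group
    have e2 : a⁻¹ * w = m * b⁻¹ := by rw [e]; group
    have l1 : len P a + len P m = len P w + len P b := by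
      rw [← len_add_left P f hm.1 ha, e1, len_add_right P f hw.2 hb]
    have l2 : len P a + len P w = len P m + len P b := by
      rw [← len_inv P a, ← len_add_left P f hw.1 (inv_mem ha), e2,
        len_add_right P f hm.2 (inv_mem hb), len_inv]
    have lab : len P a = len P b := by omega
    obtain ⟨L, hLK, hlen, hLb⟩ := exists_reduced_mem P _ hb
    rcases List.eq_nil_or_concat' L with rfl | ⟨L', t, rfl⟩
    · rw [List.length_nil] at hlen
      rw [eq_one_of_len P (w := a) (by omega), eq_one_of_len P (w := b) hlen.symm] at e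
      simpa using e
    obtain ⟨i, hi, rfl⟩ := hLK t (by simp)
    simp only [wd_append, wd_cons, wd_nil, mul_one] at hLb
    simp only [List.length_append, List.length_cons, List.length_nil] at hlen
    have hbt : len P (b * σ P (f i)) < len P b := by
      rw [← hLb, mul_assoc, σ_sq, mul_one, hLb]
      have := len_wd_le P L'
      omega
    have hlt : len P (a * m * σ P (f i)) < len P (a * m) := by
      rw [e1, mul_assoc, len_add_right P f hw.2 (mul_mem hb (σ_mem_wK P f hi)),
        len_add_right P f hw.2 hb]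
      omega
    obtain ⟨A, hA, hAlen, hAw⟩ := exists_reduced_mem P _ ha
    obtain ⟨M, hM, hMm⟩ := exists_reduced P m
    obtain ⟨X, r, Y, eL, he⟩ := exchange_right P (f i) (A ++ M)
      (by rw [wd_append, hAw, hMm]; omega)
    rw [wd_append, hAw, hMm] at he
    have hmemI : ∀ (C : List P.S), (∀ s ∈ C, s ∈ A) → wd P C ∈ wK P f I := fun C hC => by
      refine list_prod_mem fun z hz => ?_
      obtain ⟨s, hs, rfl⟩ := List.mem_map.1 hz
      exact σ_mem_wPar P (hA s (hC s hs))
    -- a letter deleted from the middle contradicts minimality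
    have hshort : ∀ C D : List P.S, M = C ++ r :: D →
        a * m * σ P (f i) = a * (wd P C * wd P D) → False := by
      intro C D hCD h
      have h' := hmin 1 (one_mem _) _ (σ_mem_wK P f hi)
      rw [one_mul] at h'
      rw [mul_assoc, mul_left_cancel_iff, ← wd_append] at h
      rw [h] at h'
      have := len_wd_le P (C ++ D)
      rw [← hM, hCD] at h'
      simp at h' this
      omega
    rcases List.append_eq_append_iff.1 eL with ⟨C, hC1, hC2⟩ | ⟨C, hC1, hC2⟩
    · exfalso
      refine hshort C Y hC2 ?_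
      rw [he, hC1, wd_append, wd_append, hAw, mul_assoc]
    rcases C with _ | ⟨c, C⟩
    · exfalso
      simp only [List.nil_append] at hC2
      rw [List.append_nil] at hC1
      refine hshort [] Y hC2.symm ?_
      rw [he, wd_append, ← hC1, hAw, wd_nil, one_mul]
    obtain ⟨rfl, rfl⟩ := List.cons.inj hC2
    set a'' := a⁻¹ * wd P (X ++ C) with ha''
    have hmem'' : a'' ∈ wK P f I :=
      mul_mem (inv_mem ha) (hmemI _ fun s hs => by
        rw [hC1]
        rcases List.mem_append.1 hs with h | h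
        · exact List.mem_append_left _ h
        · exact List.mem_append_right _ (List.mem_cons_of_mem _ h))
    have emt : m * σ P (f i) = a'' * m := by
      rw [ha'', mul_assoc a⁻¹, eq_inv_mul_iff_mul_eq, ← mul_assoc, he, List.append_eq,
        wd_append, wd_append, wd_append, hMm, mul_assoc]
    have l3 : len P a'' = 1 := by
      have h := congrArg (len P) emt
      rw [len_add_left P f hm.1 hmem'', len_add_right P f hm.2 (σ_mem_wK P f hi), len_σ] at h
      omega
    refine ih (len P (a * a'')) ?_ (mul_mem ha hmem'') (mul_mem hb (σ_mem_wK P f hi)) ?_ rfl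
    · rw [ha'', mul_inv_cancel_left]
      have h1 := len_wd_le P (X ++ C)
      rw [hC1] at hAlen
      simp only [List.length_append, List.length_cons] at hAlen h1
      omega
    · rw [mul_inv_rev, σ_inv, e]
      rw [show a * a'' * m = a * (a'' * m) by group, ← emt]
      rw [show a * (m * σ P (f i)) * (σ P (f i) * b⁻¹) = a * m * (σ P (f i) * σ P (f i)) * b⁻¹ by
        group, σ_sq, mul_one]

/-- The orbits of `P_I` on `G / P_K`. -/
abbrev Orb (I K : Finset ι) : Type _ := MulAction.orbitRel.Quotient (par P f I) (G ⧸ par P f K)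

theorem orbit_eq_iff {I K : Finset ι} (g g' : G) :
    (Quotient.mk'' (g : G ⧸ par P f K) : Orb P f I K) = Quotient.mk'' (g' : G ⧸ par P f K) ↔
      ∃ p ∈ par P f I, ∃ q ∈ par P f K, g = p * g' * q := by
  rw [Quotient.eq'', MulAction.orbitRel_apply, MulAction.mem_orbit_iff]
  constructor
  · rintro ⟨⟨p, hp⟩, h⟩
    refine ⟨p, hp, (p * g')⁻¹ * g, ?_, by group⟩
    change ((p * g' : G) : G ⧸ par P f K) = _ at h
    exact QuotientGroup.eq.1 h
  · rintro ⟨p, hp, q, hq, rfl⟩
    refine ⟨⟨p, hp⟩, ?_⟩
    show ((p * g' : G) : G ⧸ par P f K) = _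
    rw [QuotientGroup.eq, inv_mul_cancel_left]
    exact hq

theorem card_orb (I K : Finset ι) :
    Nat.card (Orb P f I K) = Nat.card {w : W P // DMin P f I K w} := by
  classical
  choose n hn hne using fun w : W P => exists_mk P w
  refine (Nat.card_eq_of_bijective
    (fun w : {w : W P // DMin P f I K w} =>
      (Quotient.mk'' ((n w.1 : G) : G ⧸ par P f K) : Orb P f I K)) ⟨fun w w' h => ?_, fun o => ?_⟩).symm
  · obtain ⟨p, hp, q, hq, e⟩ := (orbit_eq_iff P f _ _).1 h
    obtain ⟨a, ha, hpa⟩ := (mem_par_iff P f I p).1 hp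
    obtain ⟨b, hb, hqb⟩ := (mem_par_iff P f K q).1 hq
    have hn' : n w'.1 ∈ cell P w'.1 := by
      have := rep_mem_cell P (hn w'.1)
      rwa [hne] at this
    have hn1 : n w.1 ∈ cell P w.1 := by
      have := rep_mem_cell P (hn w.1)
      rwa [hne] at this
    obtain ⟨a', ha', h1⟩ := cell_mul_subset P _ ha hpa hn'
    obtain ⟨b', hb', h2⟩ := cell_mul_subset P _ (inv_mem hb) (inv_mem_cell P hqb)
      (inv_mem_cell P h1)
    rw [← mul_inv_rev, ← e] at h2
    have ew : w.1 = a' * w'.1 * b'⁻¹ := by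
      rw [cell_unique P hn1 (by simpa using inv_mem_cell P h2)]
    obtain ⟨x, hx, y, hy, m, hm0, hm, hmin⟩ := exists_double_min P f I K w'.1
    have e1 := dmin_unique P f hm hmin w'.2 hx (inv_mem hy) (by rw [inv_inv]; exact hm0)
    have e2 := dmin_unique P f hm hmin w.2 (mul_mem ha' hx) (mul_mem hb' (inv_mem hy))
      (by rw [ew, hm0]; group)
    exact Subtype.ext (e2.trans e1.symm)
  · obtain ⟨z, rfl⟩ := Quotient.mk''_surjective o
    obtain ⟨g, rfl⟩ := QuotientGroup.mk_surjective z
    obtain ⟨w, hw⟩ := bruhat P g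
    obtain ⟨a, ha, b, hb, m, rfl, hm, -⟩ := exists_double_min P f I K w
    obtain ⟨y, hy, z, hz, rfl⟩ := exists_mul_of_mem_cell_mul P hw
    obtain ⟨x, hx, v, hv, rfl⟩ := exists_mul_of_mem_cell_mul P hy
    obtain ⟨k, hk, hkm, b₁, hb₁, b₂, hb₂, rfl⟩ := (mem_cell P).1 hv
    have hbI : P.B ≤ par P f I := le_sup_left
    have hbK : P.B ≤ par P f K := le_sup_left
    refine ⟨⟨m, hm⟩, ((orbit_eq_iff P f _ _).2 ⟨x * b₁, mul_mem ((mem_par_iff P f I x).2 ⟨a, ha, hx⟩)
      (hbI hb₁), (n m)⁻¹ * k * b₂ * z, ?_, ?_⟩).symm⟩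
    · exact mul_mem (mul_mem (hbK ((mk_eq_iff P (hn m) hk).1 (by rw [hkm, hne]))) (hbK hb₂))
        ((mem_par_iff P f K z).2 ⟨b, hb, hz⟩)
    · group

/-- The mean of the alternating sum over `P_I`. -/
theorem sum_alt_par [Fintype G] [Finite (W P)] [Fintype ι] [DecidableEq ι]
    (htop : par P f Finset.univ = ⊤) (I : Finset ι) [DecidablePred (· ∈ par P f I)] :
    ∑ g with g ∈ par P f I, alt P f Finset.univ g =
      if I = ∅ then (Nat.card (par P f I) : ℤ) else 0 := by
  classical
  haveI := Fintype.ofFinite (par P f I)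
  have hburn : ∀ K : Finset ι, ∑ g with g ∈ par P f I, (fixIn P f Finset.univ K g : ℤ) =
      Nat.card (Orb P f I K) * Nat.card (par P f I) := by
    intro K
    rw [Finset.sum_subtype (p := (· ∈ par P f I)) _ (fun g => by simp)]
    haveI : Fintype (Orb P f I K) := Fintype.ofFinite _
    haveI : ∀ a : par P f I, Fintype (MulAction.fixedBy (G ⧸ par P f K) a) :=
      fun _ => Fintype.ofFinite _
    have h := MulAction.sum_card_fixedBy_eq_card_orbits_mul_card_group (par P f I) (G ⧸ par P f K)
    rw [Nat.card_eq_fintype_card (α := Orb P f I K), Nat.card_eq_fintype_card (α := par P f I),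
      ← Nat.cast_mul, ← h, Nat.cast_sum]
    refine Finset.sum_congr rfl fun g _ => ?_
    rw [fixIn_top P f htop, ← Nat.card_eq_fintype_card]
    rfl
  simp only [alt]
  rw [Finset.sum_comm]
  simp only [← Finset.mul_sum, hburn, ← mul_assoc]
  rw [← Finset.sum_mul]
  have hd : ∑ K ∈ (Finset.univ : Finset ι).powerset, (-1 : ℤ) ^ K.card * Nat.card (Orb P f I K) =
      if I = ∅ then 1 else 0 := by
    simp only [card_orb, DMin]
    rw [sum_alt_card (fun w : W P => ∀ i ∈ I, ¬ IsDesc P f w⁻¹ i) (fun w i => IsDesc P f w i)]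
    have hall : ∀ w : W P, (∀ i ∈ (Finset.univ : Finset ι), IsDesc P f w i) →
        w ∈ wK P f Finset.univ → w = w0 P f Finset.univ := fun w h hw => eq_w0 P f _ hw h
    have htopW : ∀ w : W P, w ∈ wK P f Finset.univ := by
      intro w
      obtain ⟨g, hg⟩ := cell_nonempty P w
      obtain ⟨v, hv, hgv⟩ := (mem_par_iff P f Finset.univ g).1 (by rw [htop]; trivial)
      exact cell_unique P hg hgv ▸ hv
    split_ifs with hI
    · subst hI
      rw [Nat.cast_eq_one, Nat.card_eq_one_iff_unique]
      refine ⟨⟨fun x y => Subtype.ext ((hall _ x.2.2 (htopW _)).trans (hall _ y.2.2 (htopW _)).symm)⟩,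
        ⟨⟨w0 P f Finset.univ, by simp, fun i hi => w0_desc P f _ hi⟩⟩⟩
    · rw [Nat.cast_eq_zero, Nat.card_eq_zero]
      refine Or.inl ⟨fun x => ?_⟩
      obtain ⟨i, hi⟩ := Finset.nonempty_iff_ne_empty.2 hI
      apply x.2.1 i hi
      rw [hall _ x.2.2 (htopW _), w0_inv]
      exact w0_desc P f _ (Finset.mem_univ i)
  rw [hd]
  split_ifs <;> simp

end CfsgLib.BNSteinberg
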