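import Mathlib

/-!
# Characters of relatively projective lattices vanish on `p`-singular elements

If an integral matrix representation of `G` is relatively trivial-projective from a subgroup of
index prime to `p`, its trace vanishes at every element of order divisible by `p`.
-/

set_option autoImplicit false

namespace CfsgLib.BNSteinberg

open Matrix

/-- The ring endomorphism of a group algebra induced by `π` differs by nilpotents from the identity. -/
theorem dvd_pow_sub_mapDomain {R C : Type*} [CommRing R] [CommGroup C] (p a : ℕ) [Fact p.Prime]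
    (π : C →* C) (hπ : ∀ x, (π x) ^ p ^ a = x ^ p ^ a) (z : MonoidAlgebra R C) :
    (p : MonoidAlgebra R C) ∣ z ^ p ^ a - (MonoidAlgebra.mapDomainRingHom R π z) ^ p ^ a := by
  have hp : p.Prime := Fact.out
  induction z using MonoidAlgebra.induction_linear with
  | zero => simp
  | single x c => simp [MonoidAlgebra.single_pow, hπ]
  | add u v hu hv =>
    obtain ⟨r, hr⟩ := exists_add_pow_prime_pow_eq hp u v a
    obtain ⟨r', hr'⟩ := exists_add_pow_prime_pow_eq hp (MonoidAlgebra.mapDomainRingHom R π u)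
      (MonoidAlgebra.mapDomainRingHom R π v) a
    rw [map_add, hr, hr']
    obtain ⟨s, hs⟩ := hu
    obtain ⟨t, ht⟩ := hv
    exact ⟨s + t + u * v * r - MonoidAlgebra.mapDomainRingHom R π u *
      MonoidAlgebra.mapDomainRingHom R π v * r', by linear_combination hs + ht⟩

theorem trace_map_eq {A ι : Type*} [CommRing A] [Fintype ι] [DecidableEq ι] (ε : A →+* A)
    (hε : ∀ z, ε (ε z) = ε z) (hnil : ∀ z, ε z = 0 → IsNilpotent z) (E : Matrix ι ι A)
    (hE : E * E = E) : ε E.trace = E.trace := by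
  have hEtr : ε E.trace = (ε.mapMatrix E).trace := by
    simp [Matrix.trace, map_sum]
  set E0 := ε.mapMatrix E with hE0
  have hE00 : E0 * E0 = E0 := by rw [hE0, ← map_mul, hE]
  have hfix : ε.mapMatrix E0 = E0 := by
    ext i j; simp [hE0, hε]
  set U := E * E0 + (1 - E) * (1 - E0) with hU
  have hεU : ε.mapMatrix U = 1 := by
    rw [hU]
    simp only [map_add, map_mul, map_sub, map_one, hfix, ← hE0, mul_sub, sub_mul, one_mul, mul_one,
      hE00]
    abel
  have hnilU : IsNilpotent (U.det - 1) := hnil _ (by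
    rw [map_sub, map_one, RingHom.map_det, hεU, Matrix.det_one, sub_self])
  have hdet : IsUnit U.det := by
    simpa using hnilU.isUnit_add_right_of_commute isUnit_one (Commute.all _ _)
  have hcomm : E * U = U * E0 := by
    rw [hU]
    simp only [mul_add, add_mul, mul_sub, sub_mul, one_mul, mul_one, ← mul_assoc, hE]
    simp only [mul_assoc, hE00]
    abel
  have hEeq : E = U * E0 * U⁻¹ := by
    rw [← hcomm, Matrix.mul_assoc, Matrix.mul_nonsing_inv _ hdet, Matrix.mul_one]
  rw [hEtr]
  conv_rhs => rw [hEeq, Matrix.trace_mul_comm, ← Matrix.mul_assoc, Matrix.nonsing_inv_mul _ hdet,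
    Matrix.one_mul]

/-- The case of an abelian group over a ring in which `p` is nilpotent. -/
theorem trace_eq_zero_comm {R C ι : Type*} [CommRing R] [CommGroup C] [Fintype C] [DecidableEq C]
    [Fintype ι] [DecidableEq ι] (p : ℕ) [Fact p.Prime] (hR : IsNilpotent (p : R))
    (B : C →* Matrix ι ι R) (h : Matrix ι ι R) (hh : ∑ c : C, B c⁻¹ * h * B c = 1) (x₀ : C)
    (hx₀ : p ∣ orderOf x₀) : (B x₀).trace = 0 := by
  have hp : p.Prime := Fact.out
  -- the idempotent describing the lattice as a summand of a free one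
  let E : Matrix ι ι (MonoidAlgebra R C) :=
    Matrix.of fun i j => ∑ c : C, MonoidAlgebra.single c ((h * B c⁻¹) i j)
  have hconv : ∀ x, ∑ c, h * B c⁻¹ * (h * B (x⁻¹ * c)) = h * B x⁻¹ := by
    intro x
    calc ∑ c, h * B c⁻¹ * (h * B (x⁻¹ * c))
        = h * ((∑ c, B c⁻¹ * h * B c) * B x⁻¹) := by
          rw [Finset.sum_mul, Finset.mul_sum]
          refine Finset.sum_congr rfl fun c _ => ?_
          rw [mul_comm x⁻¹ c, map_mul]
          simp only [mul_assoc]
      _ = h * B x⁻¹ := by rw [hh, one_mul]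
  have hE : E * E = E := by
    ext i k : 1
    have h1 : (E * E) i k = ∑ j, ∑ c, ∑ d,
        MonoidAlgebra.single (c * d) ((h * B c⁻¹) i j * (h * B d⁻¹) j k) := by
      rw [Matrix.mul_apply]
      refine Finset.sum_congr rfl fun j _ => ?_
      simp only [E, Matrix.of_apply, Finset.sum_mul, Finset.mul_sum,
        MonoidAlgebra.single_mul_single]
      exact Finset.sum_comm
    rw [h1, Finset.sum_comm]
    calc ∑ c, ∑ j, ∑ d, MonoidAlgebra.single (c * d) ((h * B c⁻¹) i j * (h * B d⁻¹) j k)
        = ∑ c, ∑ d, MonoidAlgebra.single (c * d) ((h * B c⁻¹ * (h * B d⁻¹)) i k) := by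
          refine Finset.sum_congr rfl fun c _ => ?_
          rw [Finset.sum_comm]
          refine Finset.sum_congr rfl fun d _ => ?_
          rw [Matrix.mul_apply (M := h * B c⁻¹) (N := h * B d⁻¹)]
          exact (map_sum (MonoidAlgebra.singleAddHom (c * d)) _ _).symm
      _ = ∑ c, ∑ x, MonoidAlgebra.single x ((h * B c⁻¹ * (h * B (x⁻¹ * c))) i k) := by
          refine Finset.sum_congr rfl fun c _ => Fintype.sum_equiv (Equiv.mulLeft c) _ _ fun d => ?_
          simp
      _ = ∑ x, MonoidAlgebra.single x ((h * B x⁻¹) i k) := by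
          rw [Finset.sum_comm]
          refine Finset.sum_congr rfl fun x _ => ?_
          rw [← hconv x, Matrix.sum_apply]
          exact (map_sum (MonoidAlgebra.singleAddHom x) _ _).symm
      _ = E i k := rfl
  -- the projection to the elements of order prime to `p`
  set N := Nat.card C with hN
  set a := N.factorization p with ha
  have hN0 : N ≠ 0 := Nat.card_pos.ne'
  have hcop : Nat.Coprime (p ^ a) (N / p ^ a) :=
    Nat.Coprime.pow_left _ ((Nat.coprime_ordCompl hp hN0))
  obtain ⟨m, hm1, hm2⟩ := Nat.chineseRemainder hcop 0 1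
  have hmul : p ^ a * (N / p ^ a) = N := Nat.ordProj_mul_ordCompl_eq_self N p
  let π : C →* C := powMonoidHom m
  have hπpow : ∀ x : C, (π x) ^ p ^ a = x ^ p ^ a := by
    intro x
    show (x ^ m) ^ p ^ a = _
    rw [← pow_mul, pow_eq_pow_iff_modEq]
    refine Nat.ModEq.of_dvd (orderOf_dvd_natCard x) ?_
    rw [show Nat.card C = p ^ a * (N / p ^ a) from hN ▸ hmul.symm, mul_comm (p ^ a)]
    simpa using hm2.mul_right' (p ^ a)
  have hπord : ∀ x : C, ¬ p ∣ orderOf (π x) := by
    intro x hdvd
    have h1 : (π x) ^ (N / p ^ a) = 1 := by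
      show (x ^ m) ^ (N / p ^ a) = 1
      rw [← pow_mul, ← orderOf_dvd_iff_pow_eq_one]
      refine (orderOf_dvd_natCard x).trans ?_
      rw [show Nat.card C = p ^ a * (N / p ^ a) from hN ▸ hmul.symm]
      exact Nat.mul_dvd_mul_right ((Nat.modEq_zero_iff_dvd).1 hm1) _
    have h2 := hdvd.trans (orderOf_dvd_of_pow_eq_one h1)
    exact (hp.coprime_iff_not_dvd.1 (Nat.coprime_ordCompl hp hN0)) h2
  have hππ : ∀ x : C, π (π x) = π x := by
    intro x
    show (x ^ m) ^ m = x ^ m
    rw [← pow_mul, pow_eq_pow_iff_modEq]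
    refine Nat.ModEq.of_dvd (orderOf_dvd_natCard x) ?_
    rw [show Nat.card C = p ^ a * (N / p ^ a) from hN ▸ hmul.symm]
    refine (Nat.modEq_and_modEq_iff_modEq_mul hcop).1 ⟨?_, ?_⟩
    · simpa using (hm1.mul hm1).trans hm1.symm
    · simpa using (hm2.mul hm2).trans hm2.symm
  let ε := MonoidAlgebra.mapDomainRingHom R π
  have hεε : ∀ z, ε (ε z) = ε z := by
    intro z
    induction z using MonoidAlgebra.induction_linear with
    | zero => simp
    | single x c => simp [ε, hππ]
    | add u v hu hv => simp only [map_add, hu, hv]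
  have hnil : ∀ z, ε z = 0 → IsNilpotent z := by
    intro z hz
    obtain ⟨k, hk⟩ := hR
    obtain ⟨w, hw⟩ := dvd_pow_sub_mapDomain p a π hπpow z
    rw [show MonoidAlgebra.mapDomainRingHom R π z = 0 from hz,
      zero_pow (pow_ne_zero _ hp.ne_zero), sub_zero] at hw
    refine ⟨p ^ a * k, ?_⟩
    rw [pow_mul, hw, mul_pow, ← map_natCast (MonoidAlgebra.singleOneRingHom (R := R) (M := C)),
      ← map_pow, hk, map_zero, zero_mul]
  have htr := trace_map_eq ε hεε hnil E hE
  -- the coefficient at an element of order divisible by `p` vanishes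
  have hcoef : E.trace.coeff x₀⁻¹ = 0 := by
    rw [← htr]
    show (Finsupp.mapDomain π E.trace.coeff) x₀⁻¹ = 0
    refine Finsupp.mapDomain_of_notMem_range _ _ fun hy => ?_
    obtain ⟨y, hy⟩ := hy
    exact hπord y (by rw [hy, orderOf_inv]; exact hx₀)
  have hval : E.trace.coeff x₀⁻¹ = (h * B x₀).trace := by
    simp [E, Matrix.trace, MonoidAlgebra.coeff_sum, Finsupp.finsetSum_apply,
      Finset.sum_ite_eq', Finsupp.single_apply]
  rw [hval] at hcoef
  calc (B x₀).trace = (∑ c, B x₀ * (B c⁻¹ * h * B c)).trace := by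
        rw [← Finset.mul_sum, hh, mul_one]
    _ = ∑ c : C, (h * B x₀).trace := by
        rw [Matrix.trace_sum]
        refine Finset.sum_congr rfl fun c _ => ?_
        rw [← mul_assoc, Matrix.trace_mul_comm, ← mul_assoc, ← mul_assoc, ← map_mul, ← map_mul,
          show c * x₀ * c⁻¹ = x₀ by rw [mul_comm c, mul_inv_cancel_right], Matrix.trace_mul_comm]
    _ = 0 := by simp [hcoef]

/-- A sum over a group by cosets. -/
theorem sum_eq_sum_out {G M : Type*} [Group G] [Fintype G] [AddCommMonoid M] (H : Subgroup G)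
    [Fintype H] [Fintype (G ⧸ H)] (φ : G → M) :
    ∑ g, φ g = ∑ q : G ⧸ H, ∑ u : H, φ (q.out * u) := by
  rw [← Fintype.sum_prod_type']
  refine (Fintype.sum_bijective (fun x : (G ⧸ H) × H => x.1.out * (x.2 : G)) ⟨?_, ?_⟩ _ _
    fun _ => rfl).symm
  · rintro ⟨q, u⟩ ⟨q', u'⟩ e
    have hq : q = q' := by
      have h1 := congrArg (fun g : G => (g : G ⧸ H)) e
      simp only [QuotientGroup.mk_mul_of_mem _ u.2, QuotientGroup.mk_mul_of_mem _ u'.2] at h1
      rwa [QuotientGroup.out_eq', QuotientGroup.out_eq'] at h1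
    subst hq
    exact Prod.ext rfl (Subtype.ext (mul_left_cancel e))
  · intro g
    refine ⟨⟨(g : G ⧸ H), ⟨(g : G ⧸ H).out⁻¹ * g, ?_⟩⟩, by simp⟩
    exact QuotientGroup.eq.1 (QuotientGroup.out_eq' _)

/-- The trace of a relatively projective integral representation vanishes at `p`-singular
elements. -/
theorem trace_eq_zero {G ι : Type*} [Group G] [Finite G] [Fintype ι] [DecidableEq ι] (p : ℕ)
    [Fact p.Prime] (A : G →* Matrix ι ι ℤ) (f : Matrix ι ι ℤ) (U : Subgroup G) [Fintype U]
    (hU : ¬ p ∣ U.index) (hf : ∑ u : U, A u * f * A (u : G)⁻¹ = 1) (g₀ : G)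
    (hg : p ∣ orderOf g₀) : (A g₀).trace = 0 := by
  classical
  haveI := Fintype.ofFinite G
  have hp : p.Prime := Fact.out
  obtain ⟨k, hk⟩ : ∃ k, ((A g₀).trace).natAbs < p ^ k := ⟨_, Nat.lt_pow_self hp.one_lt⟩
  refine Int.eq_zero_of_dvd_of_natAbs_lt_natAbs
    ((ZMod.intCast_zmod_eq_zero_iff_dvd _ (p ^ k)).1 ?_) (by simpa using hk)
  let cast := Int.castRingHom (ZMod (p ^ k))
  let A' : G →* Matrix ι ι (ZMod (p ^ k)) := cast.mapMatrix.toMonoidHom.comp A
  set f' := cast.mapMatrix f
  -- averaging over `G`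
  have hU' : IsUnit (U.index : ZMod (p ^ k)) :=
    (ZMod.isUnit_iff_coprime _ _).2 (Nat.Coprime.pow_right k ((hp.coprime_iff_not_dvd.2 hU).symm))
  obtain ⟨c, hc⟩ := hU'.exists_left_inv
  have hsumU : ∑ u : U, A' u * f' * A' (u : G)⁻¹ = 1 := by
    have := congrArg cast.mapMatrix hf
    rw [map_sum, map_one] at this
    simpa [A', f', map_mul] using this
  have hG : ∑ g : G, A' g * (c • f') * A' g⁻¹ = 1 := by
    rw [sum_eq_sum_out U]
    have : ∀ q : G ⧸ U, ∑ u : U, A' (q.out * (u : G)) *
        (c • f') * A' (q.out * (u : G))⁻¹ = c • 1 := by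
      intro q
      simp only [_root_.mul_inv_rev, map_mul]
      calc ∑ u : U, A' q.out * A' (u : G) * (c • f') * (A' (u : G)⁻¹ * A' q.out⁻¹)
          = c • (A' q.out * (∑ u : U, A' (u : G) * f' * A' (u : G)⁻¹) * A' q.out⁻¹) := by
            simp only [Finset.mul_sum, Finset.sum_mul, Finset.smul_sum, mul_smul_comm,
              smul_mul_assoc, mul_assoc]
        _ = c • 1 := by rw [hsumU, mul_one, ← map_mul, mul_inv_cancel, map_one]
    rw [Finset.sum_congr rfl fun q _ => this q, Finset.sum_const, Finset.card_univ,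
      ← Nat.card_eq_fintype_card, ← Subgroup.index, ← Nat.cast_smul_eq_nsmul (ZMod (p ^ k)),
      smul_smul, mul_comm, hc, one_smul]
  -- pass to the cyclic subgroup
  let C := Subgroup.zpowers g₀
  letI : CommGroup C := { (inferInstance : Group C) with
    mul_comm := fun a b => by
      obtain ⟨i, hi⟩ := Subgroup.mem_zpowers_iff.1 a.2
      obtain ⟨j, hj⟩ := Subgroup.mem_zpowers_iff.1 b.2
      refine Subtype.ext ?_
      show (a : G) * b = b * a
      rw [← hi, ← hj, ← _root_.zpow_add, ← _root_.zpow_add, add_comm] }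
  let h := ∑ q : G ⧸ C, A' q.out⁻¹ * (c • f') * A' q.out
  have hh : ∑ x : C, (A'.comp C.subtype) x⁻¹ * h * (A'.comp C.subtype) x = 1 := by
    rw [← hG, ← Equiv.sum_comp (Equiv.inv G) (fun g => A' g * (c • f') * A' g⁻¹),
      sum_eq_sum_out C, Finset.sum_comm]
    refine Finset.sum_congr rfl fun x _ => ?_
    simp only [h, Finset.mul_sum, Finset.sum_mul]
    refine Finset.sum_congr rfl fun q _ => ?_
    show A' (((x⁻¹ : C) : G)) * (A' q.out⁻¹ * (c • f') * A' q.out) * A' (x : G) =
      A' (q.out * (x : G))⁻¹ * (c • f') * A' (q.out * (x : G))⁻¹⁻¹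
    simp only [_root_.mul_inv_rev, inv_inv, map_mul, mul_assoc]
    rfl
  have hnil : IsNilpotent (p : ZMod (p ^ k)) :=
    ⟨k, by rw [← Nat.cast_pow, ZMod.natCast_self]⟩
  have := trace_eq_zero_comm p hnil (A'.comp C.subtype) h hh ⟨g₀, Subgroup.mem_zpowers g₀⟩
    (by rwa [Subgroup.orderOf_mk])
  rw [← this]
  simp [A', cast, Matrix.trace]

end CfsgLib.BNSteinberg
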